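import Cfsg.Agent.H5.OmegaCriterion
import Cfsg.Agent.H4.WittExt
import Cfsg.Agent.H65.OmegaTwo

/-!
The commutator subgroup of an orthogonal group over two elements without singular planes.
-/

set_option autoImplicit false

open QuadraticMap

namespace Cfsg.Agent.H65

variable {F V : Type*} [Field F] [CharP F 2] [AddCommGroup V] [Module F V] [FiniteDimensional F V]
  {Q : QuadraticForm F V}

/-- Two independent orthogonal singular vectors span a singular plane. -/
theorem no_singular_pair (hno : ∀ W : Submodule F V, (∀ w ∈ W, Q w = 0) → Module.finrank F W ≠ 2)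
    {e a : V} (he : Q e = 0) (ha : Q a = 0) (hea : polar Q e a = 0) (he0 : e ≠ 0) :
    a ∈ Submodule.span F {e} := by
  by_contra hn
  refine hno (Submodule.span F {e} ⊔ Submodule.span F {a}) (fun w hw => ?_) ?_
  · obtain ⟨x, hx, y, hy, rfl⟩ := Submodule.mem_sup.mp hw
    obtain ⟨c, rfl⟩ := Submodule.mem_span_singleton.mp hx
    obtain ⟨d, rfl⟩ := Submodule.mem_span_singleton.mp hy
    rw [H5.map_smul_add_smul, he, ha, hea]; ring
  · rw [Submodule.finrank_sup_span_singleton hn, finrank_span_singleton he0]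

/-- Without singular planes the orthogonal group is generated by reflections. -/
theorem reflGroup_eq_top_noPlane (hQ : (polarBilin Q).Nondegenerate)
    (hno : ∀ W : Submodule F V, (∀ w ∈ W, Q w = 0) → Module.finrank F W ≠ 2) :
    H5.reflGroup Q = ⊤ := by
  have hE : ∀ e a : V, H5.eich Q e a ∈ H5.reflGroup Q := by
    intro e a
    by_cases h : Q e = 0 ∧ polar Q e a = 0
    · obtain ⟨he, ha⟩ := h
      by_cases hQa : Q a = 0
      · by_cases he0 : e = 0
        · subst he0
          have : H5.eich Q (0 : V) a = 1 := H5.orth_ext fun x => by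
            rw [H5.eich_apply (map_zero Q) (polar_zero_left Q a)]; simp
          rw [this]; exact one_mem _
        · obtain ⟨t, ht⟩ := Submodule.mem_span_singleton.mp (no_singular_pair hno he hQa ha he0)
          rw [← ht, ← zero_add (t • e), H5.eich_add_smul he (polar_zero_right Q e), H5.eich_zero]
          exact one_mem _
      · rw [H5.eich_eq_refl_mul_refl he ha hQa]
        exact mul_mem (H5.refl_mem_reflGroup _) (H5.refl_mem_reflGroup _)
    · have : H5.eich Q e a = 1 := dif_neg h
      rw [this]; exact one_mem _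
  rw [eq_top_iff]
  rintro g -
  have hm := H4.mem_of_hasRefls_hasSiegels (Q := Q) (R := (H5.reflGroup Q).map (H5.orth Q).subtype) hQ
    (fun v _ => ⟨H5.refl Q v, ⟨_, H5.refl_mem_reflGroup v, rfl⟩, fun z => by
      change (H5.refl Q v : V ≃ₗ[F] V) z = _
      rw [H5.refl_apply, polar_comm (⇑Q) z v, div_eq_inv_mul]⟩)
    (fun w u hw hu => ⟨H5.eich Q w (-u), ⟨_, hE w (-u), rfl⟩, fun z => by
      change (H5.eich Q w (-u) : V ≃ₗ[F] V) z = _
      rw [H5.eich_apply hw (by simp [polar_neg_right, hu]), polar_neg_left, QuadraticMap.map_neg,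
        polar_comm (⇑Q) z u, polar_comm (⇑Q) z w]
      module⟩)
    (by rintro _ ⟨k, -, rfl⟩ z; exact k.2 z) (g := (g : V ≃ₗ[F] V)) g.2
  obtain ⟨k, hk, hkg⟩ := hm
  rwa [show g = k from Subtype.ext hkg.symm]

/-- Over two elements and without singular planes all reflections are conjugate. -/
theorem exists_conj_refl_noPlane (hQ : (polarBilin Q).Nondegenerate)
    (hF : ∀ a : F, a = 0 ∨ a = 1)
    (hno : ∀ W : Submodule F V, (∀ w ∈ W, Q w = 0) → Module.finrank F W ≠ 2) {u v : V}
    (hu : Q u ≠ 0) (hv : Q v ≠ 0) : ∃ g, g * H5.refl Q u * g⁻¹ = H5.refl Q v := by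
  have h1 : ∀ a : F, a ≠ 0 → a = 1 := fun a ha => (hF a).resolve_left ha
  have step : ∀ x y : V, Q x ≠ 0 → Q y ≠ 0 → polar Q x y ≠ 0 →
      (H5.refl Q (x - y) : V ≃ₗ[F] V) x = y := fun x y hx hy hxy => by
    refine H5.refl_sub_apply (by rw [h1 _ hx, h1 _ hy]) ?_
    rw [H5.map_sub', h1 _ hx, h1 _ hy, h1 _ hxy]
    intro h
    exact one_ne_zero (α := F) (by linear_combination h)
  by_cases hp : polar Q u v = 0
  · by_cases huv : u = v
    · exact ⟨1, by simp [huv]⟩
    obtain ⟨z, hzu, hzv⟩ : ∃ z, polar Q u z ≠ 0 ∧ polar Q v z ≠ 0 := by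
      obtain ⟨a, ha⟩ := H4.exists_polar_ne hQ (fun h : u = 0 => hu (by rw [h, map_zero Q]))
      obtain ⟨b, hb⟩ := H4.exists_polar_ne hQ (fun h : v = 0 => hv (by rw [h, map_zero Q]))
      by_cases hva : polar Q v a = 0
      · by_cases hub : polar Q u b = 0
        · exact ⟨a + b, by simp [polar_add_right, hub, ha], by simp [polar_add_right, hva, hb]⟩
        · exact ⟨b, hub, hb⟩
      · exact ⟨a, ha, hva⟩
    by_cases hQz : Q z = 0
    · exfalso
      have hs : Q (u + v) = 0 := by
        rw [QuadraticMap.map_add Q, h1 _ hu, h1 _ hv, hp, add_zero, CharTwo.add_self_eq_zero]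
      have hsz : polar Q (u + v) z = 0 := by
        rw [polar_add_left, h1 _ hzu, h1 _ hzv, CharTwo.add_self_eq_zero]
      obtain ⟨c, hc⟩ := Submodule.mem_span_singleton.mp (no_singular_pair hno hs hQz hsz
        (fun h => huv (by rw [eq_neg_of_add_eq_zero_left h, ← neg_one_smul F v, CharTwo.neg_eq, one_smul])))
      apply hzu
      rw [← hc, polar_smul_right, polar_add_right, polar_self_char_two, hp, add_zero, smul_zero]
    · refine ⟨H5.refl Q (z - v) * H5.refl Q (u - z), ?_⟩
      rw [H5.refl_conj, H5.orth_mul_apply, step u z hu hQz hzu,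
        step z v hQz hv (by rw [polar_comm]; exact hzv)]
  · exact ⟨H5.refl Q (u - v), by rw [H5.refl_conj, step u v hu hv hp]⟩

variable [Finite F] [Finite V]

/-- `Ω` over two elements without singular planes. -/
theorem mem_omega_iff_even_noPlane (hQ : (polarBilin Q).Nondegenerate)
    (hF : ∀ a : F, a = 0 ∨ a = 1)
    (hno : ∀ W : Submodule F V, (∀ w ∈ W, Q w = 0) → Module.finrank F W ≠ 2) (g : H5.orth Q) :
    g ∈ commutator (H5.orth Q) ↔ Even (H5.rk g) := by
  classical
  have hgen := reflGroup_eq_top_noPlane hQ hno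
  have hmem : ∀ k, k ∈ H5.reflGroup Q := fun k => by rw [hgen]; exact Subgroup.mem_top k
  let d : H5.orth Q →* ℤˣ := MonoidHom.mk' H5.dick fun a b => H5.dick_mul hQ (hmem a) b
  have hd : ∀ k, d k = 1 ↔ Even (H5.rk k) := fun k => by
    show H5.dick k = 1 ↔ _
    rw [H5.dick, neg_one_pow_eq_one_iff_even (by decide)]
  refine ⟨fun h => (hd g).mp ?_, fun h => ?_⟩
  · exact MonoidHom.mem_ker.mp (Abelianization.commutator_subset_ker d h)
  · let π := Abelianization.of (G := H5.orth Q)
    by_cases hex : ∃ v, Q v ≠ 0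
    · obtain ⟨v₀, hv₀⟩ := hex
      have hr : ∀ v, Q v ≠ 0 → π (H5.refl Q v) = π (H5.refl Q v₀) := fun v hv => by
        obtain ⟨k, hk⟩ := exists_conj_refl_noPlane hQ hF hno hv₀ hv
        rw [← hk, map_mul, map_mul, map_inv, mul_comm (π k), mul_inv_cancel_right]
      have key : π g = if d g = 1 then 1 else π (H5.refl Q v₀) := by
        refine H5.reflGroup_induction (p := fun k => π k = if d k = 1 then 1 else π (H5.refl Q v₀)) ?_ ?_ (hmem g)
        · simp
        · intro v k hv _ ih
          rw [map_mul, ih, hr v hv]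
          have : d (H5.refl Q v * k) = - d k := H5.dick_refl_mul hQ hv k
          rw [this]
          rcases Int.units_eq_one_or (d k) with hk | hk
          · rw [if_pos hk, hk, if_neg (by decide), mul_one]
          · rw [if_neg (by rw [hk]; decide), hk, neg_neg, if_pos rfl, ← map_mul, H5.refl_mul_self, map_one]
      rw [← Abelianization.ker_of, MonoidHom.mem_ker]
      rw [(hd g).mpr h, if_pos rfl] at key
      exact key
    · push Not at hex
      have : g = 1 := by
        refine H5.reflGroup_induction (p := fun k => k = 1) rfl (fun v k hv _ _ => absurd (hex v) hv) (hmem g)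
      rw [this]; exact one_mem _

end Cfsg.Agent.H65
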