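import Cfsg.Agent.H65.SpCent
import Cfsg.Agent.H65.OmegaParity

/-!
Orthogonal centralizers inside symplectic centralizers in characteristic two.
-/

set_option autoImplicit false

open QuadraticMap

namespace Cfsg.Agent.H65

variable {F V : Type*} [Field F] [CharP F 2] [AddCommGroup V] [Module F V] [Fintype F] [Fintype V]
  [FiniteDimensional F V] {Q : QuadraticForm F V}

omit [CharP F 2] [Fintype F] [Fintype V] [FiniteDimensional F V] in
theorem centN_comm_iff (T : H5.orth Q) (g : H2.isometries (polarBilin Q)) :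
    g ∈ centN (polarBilin Q) (H5.dLin T) ↔
      ∀ v, (g : V ≃ₗ[F] V) ((T : V ≃ₗ[F] V) v) = (T : V ≃ₗ[F] V) ((g : V ≃ₗ[F] V) v) := by
  refine forall_congr' fun v => ?_
  rw [H5.dLin_apply, H5.dLin_apply, map_sub, sub_left_inj]

omit [Fintype V] [FiniteDimensional F V] [Fintype F] in
/-- The squared functional determines its vector. -/
theorem eq_of_polar_sq (hQ : (polarBilin Q).Nondegenerate) {u u' : V}
    (h : ∀ v, polar Q u v ^ 2 = polar Q u' v ^ 2) : u = u' := by
  refine sub_eq_zero.mp (H4.eq_zero_of_polar hQ fun v => ?_)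
  have h2 : (polar Q u v + polar Q u' v) ^ 2 = 0 := by rw [CharTwo.add_sq, h, CharTwo.add_self_eq_zero]
  rw [polar_sub_left, sub_eq_zero]
  exact CharTwo.add_eq_zero.mp (pow_eq_zero_iff two_ne_zero |>.mp h2)

omit [Fintype V] [FiniteDimensional F V] in
/-- A transvection that twists `Q` by the functional of a fixed vector. -/
theorem exists_twist_transv (T : H5.orth Q) {u : V} (hu : u ∈ H5.fixer T) (hs : sgnF (Q u) = 1) :
    ∃ τ : centN (polarBilin Q) (H5.dLin T),
      ∀ v, Q ((τ.1 : V ≃ₗ[F] V) v) = Q v + polar Q u v ^ 2 := by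
  obtain ⟨y, hy⟩ := (sgnF_eq_one_iff _).mp hs
  obtain ⟨c, hc⟩ : ∃ c, c + c ^ 2 * Q u = 1 := by
    by_cases h0 : Q u = 0
    · exact ⟨1, by rw [h0, mul_zero, add_zero]⟩
    · refine ⟨y / Q u, ?_⟩
      field_simp
      linear_combination hy
  have hT : ∀ v, Q (polarTransv Q u c v) = Q v + polar Q u v ^ 2 := fun v => by
    rw [polarTransv_apply, QuadraticMap.map_add Q, QuadraticMap.map_smul, polar_smul_right, polar_comm Q v u]
    simp only [smul_eq_mul]
    linear_combination (polar Q u v) ^ 2 * hc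
  have hiso : polarTransv Q u c ∈ H2.isometries (polarBilin Q) := fun a b => by
    show Q (polarTransv Q u c a + polarTransv Q u c b) - Q (polarTransv Q u c a) - Q (polarTransv Q u c b)
      = Q (a + b) - Q a - Q b
    rw [← map_add, hT, hT, hT, polar_add_right, CharTwo.add_sq]
    ring
  exact ⟨⟨⟨_, hiso⟩, (centN_comm_iff T _).mpr fun v => polarTransv_comm Q T.2 u c (H5.mem_fixer.mp hu) v⟩, hT⟩

/-- The symplectic centralizer is the orthogonal one times the vectors that may twist `Q`. -/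
theorem card_centN_eq (hQ : (polarBilin Q).Nondegenerate) (T : H5.orth Q) :
    Nat.card (centN (polarBilin Q) (H5.dLin T)) =
      Nat.card {g : H5.orth Q // g * T = T * g} *
        Nat.card {u : V // u ∈ H5.fixer T ∧ sgnF (Q u) = 1} := by
  classical
  have hu : ∀ g : centN (polarBilin Q) (H5.dLin T),
      ∃ u, (u ∈ H5.fixer T ∧ sgnF (Q u) = 1) ∧ ∀ v, Q ((g.1 : V ≃ₗ[F] V) v) = Q v + polar Q u v ^ 2 := by
    intro g
    obtain ⟨u, hu⟩ := exists_sq_diff Q hQ g.1.2
    refine ⟨u, ⟨?_, ?_⟩, hu⟩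
    · rw [H5.mem_fixer]
      refine eq_of_polar_sq hQ fun w => ?_
      obtain ⟨v, rfl⟩ := (T : V ≃ₗ[F] V).surjective w
      have h1 := hu ((T : V ≃ₗ[F] V) v)
      rw [(centN_comm_iff T g.1).mp g.2, H5.orth_map, hu v, H5.orth_map] at h1
      rw [H5.orth_polar, add_left_cancel h1]
    · have h1 := qSum_twist Q u
      rw [← Finset.sum_congr rfl (fun v _ => congrArg sgnF (hu v))] at h1
      rw [show (∑ v, sgnF (Q ((g.1 : V ≃ₗ[F] V) v))) = qSum Q from qSum_congr Q (g.1 : V ≃ₗ[F] V).toEquiv] at h1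
      exact mul_right_cancel₀ (qSum_ne_zero Q hQ) (h1.symm.trans (one_mul _).symm)
  choose φ hφ using hu
  have hτ : ∀ u : {u : V // u ∈ H5.fixer T ∧ sgnF (Q u) = 1}, ∃ τ : centN (polarBilin Q) (H5.dLin T),
      ∀ v, Q ((τ.1 : V ≃ₗ[F] V) v) = Q v + polar Q u.1 v ^ 2 :=
    fun u => exists_twist_transv T u.2.1 u.2.2
  choose τ hτ using hτ
  have hback : ∀ g, (g * (τ ⟨φ g, (hφ g).1⟩)⁻¹ : centN (polarBilin Q) (H5.dLin T)).1.1 ∈ H5.orth Q := by
    intro g v
    obtain ⟨w, rfl⟩ := (τ ⟨φ g, (hφ g).1⟩).1.1.surjective v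
    rw [hτ]
    simp only [Subgroup.coe_mul, InvMemClass.coe_inv, LinearEquiv.mul_apply, LinearEquiv.coe_inv,
      LinearEquiv.symm_apply_apply]
    exact (hφ g).2 w
  have hmem : ∀ h : {g : H5.orth Q // g * T = T * g},
      (⟨h.1.1, qIsoms_le_isometries Q h.1.2⟩ : H2.isometries (polarBilin Q)) ∈
        centN (polarBilin Q) (H5.dLin T) := fun h => (centN_comm_iff T _).mpr fun v => by
    rw [← H5.orth_mul_apply, h.2, H5.orth_mul_apply]
  let inv : {g : H5.orth Q // g * T = T * g} × {u : V // u ∈ H5.fixer T ∧ sgnF (Q u) = 1} →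
      centN (polarBilin Q) (H5.dLin T) := fun p => ⟨_, hmem p.1⟩ * τ p.2
  have hinv : ∀ p, φ (inv p) = p.2.1 := fun p => eq_of_polar_sq hQ fun v => by
    have h1 := (hφ (inv p)).2 v
    have h2 : Q ((inv p).1.1 v) = Q v + polar Q p.2.1 v ^ 2 :=
      (p.1.1.2 _).trans (hτ p.2 v)
    exact add_left_cancel (h1.symm.trans h2)
  rw [← Nat.card_prod]
  refine Nat.card_congr
    { toFun := fun g => (⟨⟨_, hback g⟩, H5.orth_ext fun v => by
        rw [H5.orth_mul_apply, H5.orth_mul_apply]
        exact (centN_comm_iff T _).mp (g * (τ ⟨φ g, (hφ g).1⟩)⁻¹).2 v⟩, ⟨φ g, (hφ g).1⟩)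
      invFun := inv
      left_inv := fun g => by
        apply Subtype.ext
        apply Subtype.ext
        refine LinearEquiv.ext fun v => ?_
        simp [inv, LinearEquiv.coe_inv]
      right_inv := fun p => by
        have e : (⟨φ (inv p), (hφ (inv p)).1⟩ : {u : V // u ∈ H5.fixer T ∧ sgnF (Q u) = 1}) = p.2 :=
          Subtype.ext (hinv p)
        refine Prod.ext (Subtype.ext (Subtype.ext ?_)) e
        show (inv p * (τ ⟨φ (inv p), (hφ (inv p)).1⟩)⁻¹).1.1 = p.1.1.1
        rw [e]
        simp only [inv, mul_inv_cancel_right] }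

/-- Twice the number of twisting vectors. -/
theorem two_mul_card_twist (W : Submodule F V) :
    2 * (Nat.card {u : V // u ∈ W ∧ sgnF (Q u) = 1} : ℤ) = (Nat.card W : ℤ) + qSumOn Q W := by
  classical
  have hpt : ∀ u, sgnF (Q u) = 2 * (if sgnF (Q u) = 1 then 1 else 0) - 1 := fun u => by
    unfold sgnF; split_ifs <;> simp_all
  rw [qSumOn, Finset.sum_congr rfl fun u _ => hpt u, Finset.sum_sub_distrib, ← Finset.mul_sum,
    Finset.sum_boole, Finset.filter_filter, Nat.card_eq_fintype_card, Nat.card_eq_fintype_card,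
    Fintype.card_subtype, Fintype.card_subtype]
  simp

omit [Fintype F] [FiniteDimensional F V] in
theorem card_submodule_eq [Finite F] [FiniteDimensional F V] (W : Submodule F V) :
    Nat.card W = Nat.card F ^ Module.finrank F W := Module.natCard_eq_pow_finrank

/-- If `Q` is not zero on the residual space of an involution, the sum over the fixed space vanishes. -/
theorem qSumOn_fixer_eq_zero (hQ : (polarBilin Q).Nondegenerate) (T : H5.orth Q)
    (hle : H5.resid T ≤ H5.fixer T) {w : V} (hw : w ∈ H5.resid T) (hQw : Q w ≠ 0) :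
    qSumOn Q (H5.fixer T) = 0 := by
  classical
  obtain ⟨a, ha⟩ := exists_sgnF_neg (F := F)
  obtain ⟨r, hr⟩ := isSquare_char_two (a / Q w)
  have hw' : r • w ∈ H5.resid T := Submodule.smul_mem _ _ hw
  have hQ' : Q (r • w) = a := by
    rw [QuadraticMap.map_smul, smul_eq_mul, hr, div_mul_cancel₀ _ hQw]
  have key := sum_eq_zero_of_translate (fun u : H5.fixer T => sgnF (Q (u : V))) ⟨r • w, hle hw'⟩ fun u => by
    show sgnF (Q ((u : V) + r • w)) = _
    rw [sgnF_map_add, hQ', ha]
    have hz : polar Q (r • w) (u : V) = 0 := by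
      exact (H5.fixer_eq_perp_resid hQ T).le u.2 _ hw'
    rw [polar_comm, hz, sgnF_zero]
    ring
  rw [qSumOn]
  rwa [Finset.sum_subtype _ (fun x => Finset.mem_filter.trans (and_iff_right (Finset.mem_univ x))) (fun v => sgnF (Q v))]

/-- A centralizing reflection halves the centralizer. -/
theorem card_cent_two_mul (hQ : (polarBilin Q).Nondegenerate)
    (h : Nat.card F ≠ 2 ∨ Module.finrank F V ≠ 4) (T : H5.orth Q) {a : V} (ha : a ∈ H5.fixer T)
    (hQa : Q a ≠ 0) :
    Nat.card {g : H5.orth Q // g * T = T * g} =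
      2 * Nat.card {g : H5.orth Q // g ∈ commutator (H5.orth Q) ∧ g * T = T * g} := by
  classical
  have : Finite (H5.orth Q) := Finite.of_injective (fun g => (fun v => (g : V ≃ₗ[F] V) v))
    fun g g' h => H5.orth_ext (congrFun h)
  have hr := refl_commute_of_fixed T (H5.mem_fixer.mp ha)
  have hidx := H5.commutator_index_two (Q := Q) CharTwo.two_eq_zero hQ h ⟨a, hQa⟩
  have hrO : H5.refl Q a ∉ commutator (H5.orth Q) := fun hr => by
    rw [H5.mem_commutator_iff hQ h, H5.dick_refl hQ hQa] at hr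
    exact absurd hr.1 (by decide)
  have e1 : {g : H5.orth Q // g ∈ commutator (H5.orth Q) ∧ g * T = T * g} ≃
      {g : H5.orth Q // g ∉ commutator (H5.orth Q) ∧ g * T = T * g} :=
    { toFun := fun g => ⟨H5.refl Q a * g, fun hm => hrO (by
          rw [Subgroup.mul_mem_iff_of_index_two hidx] at hm; exact hm.mpr g.2.1), by
          rw [mul_assoc, g.2.2, ← mul_assoc, ← hr, mul_assoc]⟩
      invFun := fun g => ⟨H5.refl Q a * g, by
          rw [Subgroup.mul_mem_iff_of_index_two hidx]; exact iff_of_false hrO g.2.1, by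
          rw [mul_assoc, g.2.2, ← mul_assoc, ← hr, mul_assoc]⟩
      left_inv := fun g => Subtype.ext (by simp [← mul_assoc, H5.refl_mul_self])
      right_inv := fun g => Subtype.ext (by simp [← mul_assoc, H5.refl_mul_self]) }
  have e2 := Nat.card_congr (Equiv.sumCompl
    (fun g : {g : H5.orth Q // g * T = T * g} => g.1 ∈ commutator (H5.orth Q))).symm
  have a1 := Nat.card_congr (Equiv.subtypeSubtypeEquivSubtypeInter (fun g : H5.orth Q => g * T = T * g)
    (fun g => g ∈ commutator (H5.orth Q)))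
  have a2 := Nat.card_congr (Equiv.subtypeSubtypeEquivSubtypeInter (fun g : H5.orth Q => g * T = T * g)
    (fun g => g ∉ commutator (H5.orth Q)))
  simp only [and_comm (a := _ * T = T * _)] at a1 a2
  rw [e2, Nat.card_sum, a1, a2, ← Nat.card_congr e1, two_mul]

/-- With a totally singular fixed space the centralizer lies in `Ω`. -/
theorem cent_mem_commutator (hQ : (polarBilin Q).Nondegenerate)
    (h : Nat.card F ≠ 2 ∨ Module.finrank F V ≠ 4) (T : H5.orth Q) (hT : T * T = 1)
    (hs : ∀ u ∈ H5.fixer T, Q u = 0) {g : H5.orth Q} (hg : g * T = T * g) :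
    g ∈ commutator (H5.orth Q) := by
  obtain ⟨h1, h2⟩ := involution_singular_fixer hQ T hT hs
  have hd : Module.finrank F (H5.fixer T) = H5.rk T := by rw [← h2]; rfl
  rw [mem_omega_iff_even hQ h, even_rk_iff_inf hQ h h1.symm hs hd g]
  have hle : (H5.fixer T).map ((g : V ≃ₗ[F] V) : V →ₗ[F] V) = H5.fixer T := by
    refine Submodule.eq_of_le_of_finrank_eq ?_ (LinearEquiv.finrank_map_eq _ _)
    rintro _ ⟨x, hx, rfl⟩
    rw [H5.mem_fixer, LinearEquiv.coe_coe, ← H5.orth_mul_apply, ← hg, H5.orth_mul_apply,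
      H5.mem_fixer.mp hx]
  rw [hle, inf_idem, hd]
  exact Even.add_self _

end Cfsg.Agent.H65
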