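import Cfsg.Agent.H65.SpMatrixCent
import Cfsg.Agent.H65.OrthCent
import Cfsg.Agent.H65.MinusType
import Cfsg.Agent.H65.OmegaMat

/-!
Centralizers in `Ω⁺_2m(q)`, `q` even, of involutions of the orthogonal group.
-/

set_option autoImplicit false

open Matrix

namespace Cfsg.Agent.H65

variable {F : Type*} [Field F] [CharP F 2] {m : ℕ}

/-- In characteristic two the polar form of the hyperbolic form is `sympForm`. -/
theorem polar_qPlus_eq_sympForm (u v : Fin m ⊕ Fin m → F) :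
    QuadraticMap.polar (H4.qPlus m F) u v = Cfsg.sympForm m F u v := by
  rw [H4.polar_qPlus, H2.sympForm_apply]
  refine Finset.sum_congr rfl fun i _ => ?_
  rw [CharTwo.sub_eq_add, add_comm]

theorem sympBilin_eq_polarBilin :
    H2.sympBilin m F = QuadraticMap.polarBilin (H4.qPlus m F) :=
  LinearMap.ext fun u => LinearMap.ext fun v => by
    rw [H2.sympBilin_apply, QuadraticMap.polarBilin_apply_apply, polar_qPlus_eq_sympForm]

/-- An orthogonal transformation of the hyperbolic form as a symplectic matrix. -/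
noncomputable def plusToSp (x : Cfsg.isometryGroup F (Cfsg.quadFormPlus m F)) :
    Matrix.symplecticGroup (Fin m) F :=
  ⟨((x : Matrix.GeneralLinearGroup (Fin m ⊕ Fin m) F) : Matrix (Fin m ⊕ Fin m) (Fin m ⊕ Fin m) F),
    H2.mem_symplecticGroup_iff.mpr fun u v => by
      rw [← polar_qPlus_eq_sympForm, ← polar_qPlus_eq_sympForm]
      exact H5.orth_polar (H5.isoEquiv _ (H4.coe_qPlus m) x) u v⟩

theorem plusToSp_sq {x : Cfsg.isometryGroup F (Cfsg.quadFormPlus m F)} (hx : x ^ 2 = 1) :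
    plusToSp x ^ 2 = 1 := by
  apply Subtype.ext
  have := congrArg (fun y : Cfsg.isometryGroup F (Cfsg.quadFormPlus m F) =>
    ((y : Matrix.GeneralLinearGroup (Fin m ⊕ Fin m) F) : Matrix (Fin m ⊕ Fin m) (Fin m ⊕ Fin m) F)) hx
  simpa [plusToSp, pow_two] using this

theorem dLin_plus (x : Cfsg.isometryGroup F (Cfsg.quadFormPlus m F)) :
    H5.dLin (H5.isoEquiv _ (H4.coe_qPlus m) x) = spN (plusToSp x) :=
  dLin_isoEquiv _ _ x

theorem resid_le_fixer {V : Type*} [AddCommGroup V] [Module F V] {Q : QuadraticForm F V}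
    (T : H5.orth Q) (hT : T * T = 1) : H5.resid T ≤ H5.fixer T := by
  rintro _ ⟨x, rfl⟩
  rw [H5.mem_fixer, H5.dLin_apply, map_sub, ← H5.orth_mul_apply, hT]
  show x - (T : V ≃ₗ[F] V) x = _
  rw [← neg_sub, ← neg_one_smul F, CharTwo.neg_eq, one_smul]

theorem map_dLin_char_two {V : Type*} [AddCommGroup V] [Module F V] {Q : QuadraticForm F V}
    (T : H5.orth Q) (v : V) :
    Q (H5.dLin T v) = QuadraticMap.polar Q v ((T : V ≃ₗ[F] V) v) := by
  rw [H5.dLin_apply, H5.map_sub', H5.orth_map, QuadraticMap.polar_comm, CharTwo.sub_eq_add,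
    CharTwo.add_self_eq_zero, zero_add]

variable [Fintype F]

/-- Everything needed for the three types at once. -/
theorem plus_cent_main (h : Fintype.card F ≠ 2 ∨ m ≠ 2)
    (x : Cfsg.isometryGroup F (Cfsg.quadFormPlus m F)) (hx : x ^ 2 = 1) {s : ℕ}
    (hs : (((x : Matrix.GeneralLinearGroup (Fin m ⊕ Fin m) F) : Matrix (Fin m ⊕ Fin m) (Fin m ⊕ Fin m) F) - 1).rank = s) :
    let T := H5.isoEquiv _ (H4.coe_qPlus m) x
    let Csp := Nat.card (Subgroup.centralizer ({plusToSp x} : Set (Matrix.symplecticGroup (Fin m) F)))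
    let CΩ := Nat.card {g : ↥(Cfsg.Omega F (Cfsg.quadFormPlus m F)) //
      (g : ↥(Cfsg.isometryGroup F (Cfsg.quadFormPlus m F))) * x = x * (g : ↥(Cfsg.isometryGroup F (Cfsg.quadFormPlus m F)))}
    (∀ u ∈ H5.fixer T, H4.qPlus m F u = 0) ∧ (Csp : ℤ) * 2 = CΩ * ((Nat.card F : ℤ) ^ (2 * m - s) + qSumOn (H4.qPlus m F) (H5.fixer T)) ∨
    (∃ u ∈ H5.fixer T, H4.qPlus m F u ≠ 0) ∧ (Csp : ℤ) = CΩ * ((Nat.card F : ℤ) ^ (2 * m - s) + qSumOn (H4.qPlus m F) (H5.fixer T)) := by
  classical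
  intro T Csp CΩ
  have hTdef : T = H5.isoEquiv _ (H4.coe_qPlus m) x := rfl
  have hQ := qPlus_nd (F := F) m
  have hex : Nat.card F ≠ 2 ∨ Module.finrank F (Fin m ⊕ Fin m → F) ≠ 4 :=
    excl_of_card (h.imp_right fun hm => by simp; omega)
  have hT : T * T = 1 := by rw [hTdef, ← map_mul, ← pow_two, hx, map_one]
  have hCsp : Csp = Nat.card (centN (QuadraticMap.polarBilin (H4.qPlus m F)) (H5.dLin T)) := by
    simp only [Csp]
    rw [card_centralizer_eq_centN, hTdef, dLin_plus, sympBilin_eq_polarBilin]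
  have hCΩ : CΩ = Nat.card {g : H5.orth (H4.qPlus m F) // g ∈ commutator (H5.orth (H4.qPlus m F)) ∧ g * T = T * g} := by
    refine Nat.card_congr ((Equiv.subtypeSubtypeEquivSubtypeInter _
      (fun g => g * x = x * g)).trans ((H5.isoEquiv (H4.qPlus m F) (H4.coe_qPlus m)).toEquiv.subtypeEquiv fun g => ?_))
    show g ∈ Cfsg.Omega F _ ∧ _ ↔ _
    rw [H5.mem_Omega_iff (H4.qPlus m F) (H4.coe_qPlus m)]
    refine and_congr_right' ?_
    show _ ↔ H5.isoEquiv (H4.qPlus m F) _ g * T = T * H5.isoEquiv (H4.qPlus m F) _ g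
    rw [hTdef, ← map_mul, ← map_mul, (H5.isoEquiv (H4.qPlus m F) (H4.coe_qPlus m)).injective.eq_iff]
  have hU : 2 * (Nat.card {u : Fin m ⊕ Fin m → F // u ∈ H5.fixer T ∧ sgnF ((H4.qPlus m F) u) = 1} : ℤ) =
      (Nat.card F : ℤ) ^ (2 * m - s) + qSumOn (H4.qPlus m F) (H5.fixer T) := by
    rw [two_mul_card_twist, card_submodule_eq]
    have hk := H5.rk_add_finrank_fixer T
    have hrk : H5.rk T = s := by rw [hTdef, rk_isoEquiv, hs]
    rw [hrk, Module.finrank_fintype_fun_eq_card] at hk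
    simp only [Fintype.card_sum, Fintype.card_fin] at hk
    rw [show Module.finrank F (H5.fixer T) = 2 * m - s by omega]
    push_cast
    rfl
  rw [← hU, hCsp, hCΩ, card_centN_eq hQ T]
  by_cases hns : ∃ u ∈ H5.fixer T, (H4.qPlus m F) u ≠ 0
  · right
    obtain ⟨u, hu, hQu⟩ := hns
    refine ⟨⟨u, hu, hQu⟩, ?_⟩
    rw [card_cent_two_mul hQ hex T hu hQu]
    push_cast; ring
  · left
    push Not at hns
    refine ⟨hns, ?_⟩
    rw [Nat.card_congr (Equiv.subtypeEquivRight (fun g : H5.orth (H4.qPlus m F) => (⟨fun hg => ⟨cent_mem_commutator hQ hex T hT hns hg, hg⟩,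
      fun hg => hg.2⟩ : g * T = T * g ↔ g ∈ commutator (H5.orth (H4.qPlus m F)) ∧ g * T = T * g)))]
    push_cast; ring

/-- Types b and c. -/
theorem plus_cent_nonalt (h : Fintype.card F ≠ 2 ∨ m ≠ 2)
    (x : Cfsg.isometryGroup F (Cfsg.quadFormPlus m F)) (hx : x ^ 2 = 1) {s : ℕ}
    (hs : (((x : Matrix.GeneralLinearGroup (Fin m ⊕ Fin m) F) : Matrix (Fin m ⊕ Fin m) (Fin m ⊕ Fin m) F) - 1).rank = s)
    (hna : ¬ ∀ v, Cfsg.sympForm m F v ((plusToSp x).1 *ᵥ v) = 0) :
    Nat.card {g : ↥(Cfsg.Omega F (Cfsg.quadFormPlus m F)) //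
      (g : ↥(Cfsg.isometryGroup F (Cfsg.quadFormPlus m F))) * x = x * (g : ↥(Cfsg.isometryGroup F (Cfsg.quadFormPlus m F)))} *
        Nat.card F ^ (2 * m - s) =
      Nat.card F ^ (2 * m * s - (3 * s ^ 2 - s) / 2) * onCount F s *
        Nat.card (Matrix.symplecticGroup (Fin (m - s)) F) := by
  classical
  obtain ⟨-, hC⟩ := card_centralizer_nonalt (plusToSp x) (plusToSp_sq hx) (show _ = s from hs) hna
  set T := H5.isoEquiv _ (H4.coe_qPlus m) x with hTdef
  have hT : T * T = 1 := by rw [hTdef, ← map_mul, ← pow_two, hx, map_one]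
  obtain ⟨v, hv⟩ := not_forall.mp hna
  have hw : H4.qPlus m F (H5.dLin T v) ≠ 0 := by
    rw [map_dLin_char_two, H5.isoEquiv_apply, polar_qPlus_eq_sympForm]
    exact hv
  have h0 := qSumOn_fixer_eq_zero (qPlus_nd m) T (resid_le_fixer T hT) (LinearMap.mem_range_self _ v) hw
  rcases plus_cent_main h x hx hs with ⟨hz, -⟩ | ⟨-, he⟩
  · exact absurd (hz _ (resid_le_fixer T hT (LinearMap.mem_range_self _ v))) hw
  · rw [h0, add_zero] at he
    rw [← hC]
    exact_mod_cast he.symm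

/-- Type a. -/
theorem plus_cent_alt (h : Fintype.card F ≠ 2 ∨ m ≠ 2)
    (x : Cfsg.isometryGroup F (Cfsg.quadFormPlus m F)) (hx : x ^ 2 = 1) {s : ℕ}
    (hs : (((x : Matrix.GeneralLinearGroup (Fin m ⊕ Fin m) F) : Matrix (Fin m ⊕ Fin m) (Fin m ⊕ Fin m) F) - 1).rank = s)
    (halt : ∀ v : Fin m ⊕ Fin m → F, Cfsg.quadFormPlus m F ((((x : Matrix.GeneralLinearGroup (Fin m ⊕ Fin m) F) : Matrix (Fin m ⊕ Fin m) (Fin m ⊕ Fin m) F) - 1).mulVec v) = 0) :
    s ≤ m ∧ Nat.card {g : ↥(Cfsg.Omega F (Cfsg.quadFormPlus m F)) //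
      (g : ↥(Cfsg.isometryGroup F (Cfsg.quadFormPlus m F))) * x = x * (g : ↥(Cfsg.isometryGroup F (Cfsg.quadFormPlus m F)))} *
        (Nat.card F ^ m * (if s = m then 1 else Nat.card F ^ (m - s) + 1)) =
      Nat.card F ^ (2 * m * s - (3 * s ^ 2 - s) / 2) * Nat.card (Matrix.symplecticGroup (Fin (s / 2)) F) *
        Nat.card (Matrix.symplecticGroup (Fin (m - s)) F) := by
  classical
  set T := H5.isoEquiv _ (H4.coe_qPlus m) x with hTdef
  have hres : ∀ w ∈ H5.resid T, H4.qPlus m F w = 0 := by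
    rintro _ ⟨v, rfl⟩
    rw [hTdef, dLin_isoEquiv, H4.coe_qPlus]
    exact halt v
  have ha : ∀ v, Cfsg.sympForm m F v ((plusToSp x).1 *ᵥ v) = 0 := fun v => by
    rw [← polar_qPlus_eq_sympForm]
    have := map_dLin_char_two T v
    rw [hres _ (LinearMap.mem_range_self _ v), H5.isoEquiv_apply] at this
    exact this.symm
  obtain ⟨hle, hC⟩ := card_centralizer_alt (plusToSp x) (plusToSp_sq hx) (show _ = s from hs) ha
  refine ⟨hle, ?_⟩
  have hQ := qPlus_nd (F := F) m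
  have hT : T * T = 1 := by rw [hTdef, ← map_mul, ← pow_two, hx, map_one]
  have hS : qSumOn (H4.qPlus m F) (H5.fixer T) = (Nat.card F : ℤ) ^ m := by
    rw [H5.fixer_eq_perp_resid hQ T]
    refine (qSum_eq_qSumOn_perp _ _ hres).symm.trans ?_
    rw [qSum, H4.coe_qPlus, sum_sgnF_quadFormPlus, Nat.card_eq_fintype_card]
  have hk := H5.rk_add_finrank_fixer T
  rw [rk_isoEquiv, hs, Module.finrank_fintype_fun_eq_card] at hk
  simp only [Fintype.card_sum, Fintype.card_fin] at hk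
  rw [← hC]
  rcases plus_cent_main h x hx hs with ⟨hz, he⟩ | ⟨⟨u, hu, hne⟩, he⟩
  · have h1 := (involution_singular_fixer hQ T hT hz).1
    rw [rk_isoEquiv, hs, Module.finrank_fintype_fun_eq_card] at h1
    simp only [Fintype.card_sum, Fintype.card_fin] at h1
    obtain rfl : s = m := by omega
    rw [hS, show 2 * s - s = s by omega] at he
    rw [if_pos rfl, mul_one]
    have h2 := mul_right_cancel₀ (two_ne_zero : (2 : ℤ) ≠ 0) (he.trans (by ring :
      _ = (Nat.card {g : ↥(Cfsg.Omega F (Cfsg.quadFormPlus s F)) //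
        (g : ↥(Cfsg.isometryGroup F (Cfsg.quadFormPlus s F))) * x = x * (g : ↥(Cfsg.isometryGroup F (Cfsg.quadFormPlus s F)))} : ℤ) * (Nat.card F : ℤ) ^ s * 2))
    exact_mod_cast h2.symm
  · have hne' : s ≠ m := by
      intro hsm
      apply hne
      have e : H5.resid T = H5.fixer T := by
        refine Submodule.eq_of_le_of_finrank_eq (resid_le_fixer T hT) ?_
        show H5.rk T = _
        rw [rk_isoEquiv, hs]
        omega
      exact hres u (e ▸ hu)
    rw [hS, show 2 * m - s = m + (m - s) by omega, pow_add] at he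
    rw [if_neg hne']
    zify
    rw [he]
    ring

end Cfsg.Agent.H65
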