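import Cfsg.Agent.H65.InvClasses
import Cfsg.Agent.H65.OrthPlusCent
import Cfsg.Agent.H65.MinusSmall

/-!
Numbers of involution classes of orthogonal and symplectic groups in characteristic two.
-/

set_option autoImplicit false

open QuadraticMap

namespace Cfsg.Agent.H65

/-- Invariants of types b and c. -/
def typeBC (m : ℕ) : Finset (ℕ × Bool) := (Finset.Icc 1 m).image fun k => (k, false)

/-- Invariants of type c. -/
def typeC (r : ℕ) : Finset (ℕ × Bool) := (Finset.Icc 1 r).image fun k => (2 * k, false)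

/-- Invariants of type a. -/
def typeA (r : ℕ) : Finset (ℕ × Bool) := (Finset.Icc 1 r).image fun k => (2 * k, true)

theorem mem_typeBC {m s : ℕ} {b : Bool} : (s, b) ∈ typeBC m ↔ 1 ≤ s ∧ s ≤ m ∧ b = false := by
  simp [typeBC, Finset.mem_image, and_assoc, eq_comm]

theorem mem_typeC {r s : ℕ} {b : Bool} : (s, b) ∈ typeC r ↔ (∃ k, 1 ≤ k ∧ k ≤ r ∧ s = 2 * k) ∧ b = false := by
  simp only [typeC, Finset.mem_image, Finset.mem_Icc, Prod.mk.injEq]
  constructor
  · rintro ⟨k, ⟨h1, h2⟩, rfl, rfl⟩; exact ⟨⟨k, h1, h2, rfl⟩, rfl⟩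
  · rintro ⟨⟨k, h1, h2, rfl⟩, rfl⟩; exact ⟨k, ⟨h1, h2⟩, rfl, rfl⟩

theorem mem_typeA {r s : ℕ} {b : Bool} : (s, b) ∈ typeA r ↔ (∃ k, 1 ≤ k ∧ k ≤ r ∧ s = 2 * k) ∧ b = true := by
  simp only [typeA, Finset.mem_image, Finset.mem_Icc, Prod.mk.injEq]
  constructor
  · rintro ⟨k, ⟨h1, h2⟩, rfl, rfl⟩; exact ⟨⟨k, h1, h2, rfl⟩, rfl⟩
  · rintro ⟨⟨k, h1, h2, rfl⟩, rfl⟩; exact ⟨k, ⟨h1, h2⟩, rfl, rfl⟩

theorem card_typeBC_union (m r : ℕ) : (typeBC m ∪ typeA r).card = m + r := by
  rw [Finset.card_union_of_disjoint, typeBC, typeA, Finset.card_image_of_injective _ (fun a b h => by simpa using h),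
    Finset.card_image_of_injective _ (fun a b h => by simpa using h)]
  · simp
  · rw [Finset.disjoint_left]
    rintro ⟨s, b⟩ h h'
    rw [mem_typeBC] at h
    rw [mem_typeA] at h'
    simp [h.2.2] at h'

theorem card_typeC_union (m r : ℕ) : (typeC m ∪ typeA r).card = m + r := by
  rw [Finset.card_union_of_disjoint, typeC, typeA, Finset.card_image_of_injective _ (fun a b h => by simpa using h),
    Finset.card_image_of_injective _ (fun a b h => by simpa using h)]
  · simp
  · rw [Finset.disjoint_left]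
    rintro ⟨s, b⟩ h h'
    rw [mem_typeC] at h
    rw [mem_typeA] at h'
    simp [h.2] at h'

theorem mul_self_of_orderOf_two {G : Type*} [Group G] {x : G} (h : orderOf x = 2) : x * x = 1 := by
  rw [← pow_two, ← h, pow_orderOf_eq_one]

/-- Involution classes correspond under isomorphisms. -/
theorem card_involution_classes_congr {G H : Type*} [Group G] [Group H] (e : G ≃* H) :
    Nat.card {C : ConjClasses G // ∃ g : G, ConjClasses.mk g = C ∧ orderOf g = 2} =
      Nat.card {C : ConjClasses H // ∃ g : H, ConjClasses.mk g = C ∧ orderOf g = 2} := by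
  let φ : ConjClasses G ≃ ConjClasses H :=
    { toFun := ConjClasses.map e.toMonoidHom
      invFun := ConjClasses.map e.symm.toMonoidHom
      left_inv := fun C => by
        obtain ⟨g, rfl⟩ := ConjClasses.exists_rep C
        show ConjClasses.mk (e.symm (e g)) = _
        rw [MulEquiv.symm_apply_apply]
      right_inv := fun C => by
        obtain ⟨g, rfl⟩ := ConjClasses.exists_rep C
        show ConjClasses.mk (e (e.symm g)) = _
        rw [MulEquiv.apply_symm_apply] }
  refine Nat.card_congr (φ.subtypeEquiv fun C => ⟨?_, ?_⟩)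
  · rintro ⟨g, rfl, hg⟩
    exact ⟨e g, rfl, by rw [MulEquiv.orderOf_eq, hg]⟩
  · rintro ⟨h, hh, ho⟩
    refine ⟨e.symm h, ?_, by rw [MulEquiv.orderOf_eq, ho]⟩
    apply φ.injective
    show ConjClasses.mk (e (e.symm h)) = _
    rw [MulEquiv.apply_symm_apply, hh]

section Orth

variable {F V : Type*} [Field F] [CharP F 2] [AddCommGroup V] [Module F V] [FiniteDimensional F V]
  [Fintype F] [Fintype V] {Q : QuadraticForm F V}

/-- Hypotheses describing the involutions of an even-dimensional orthogonal space. -/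
structure InvolSpace (Q : QuadraticForm F V) (m r : ℕ) : Prop where
  nd : (polarBilin Q).Nondegenerate
  dim : Module.finrank F V = 2 * m
  le : 2 * r ≤ m
  bound : ∀ W : Submodule F V, (∀ w ∈ W, Q w = 0) → Module.finrank F W ≤ m → Even (Module.finrank F W) →
    Module.finrank F W ≤ 2 * r
  vecs : ∃ a : Fin m → V, LinearIndependent F a ∧ (∀ i j, polar Q (a i) (a j) = 0) ∧ ∀ i, Q (a i) = 1
  sing : ∃ c : Fin (2 * r) → V, LinearIndependent F c ∧ (∀ i j, polar Q (c i) (c j) = 0) ∧ ∀ i, Q (c i) = 0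

variable {m r : ℕ}

omit [Fintype F] [Fintype V] in
theorem InvolSpace.inv_facts (d : InvolSpace Q m r) (x : H5.orth Q) (hx : orderOf x = 2) :
    (1 ≤ H5.rk x ∧ H5.rk x ≤ m) ∧ ((∀ w ∈ H5.resid x, Q w = 0) → ∃ k, 1 ≤ k ∧ k ≤ r ∧ H5.rk x = 2 * k) := by
  have h2 := mul_self_of_orderOf_two hx
  have hle := rk_le_half d.nd x h2
  rw [d.dim] at hle
  have hpos : 1 ≤ H5.rk x := by
    by_contra h
    have := H5.eq_one_of_rk_eq_zero (show H5.rk x = 0 by omega)
    rw [this, orderOf_one] at hx
    omega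
  refine ⟨⟨hpos, by omega⟩, fun hs => ?_⟩
  obtain ⟨k, hk⟩ := even_rk_of_singular d.nd x h2 hs
  have := d.bound _ hs (show H5.rk x ≤ m by omega) ⟨k, hk⟩
  have : H5.rk x ≤ 2 * r := this
  exact ⟨k, by omega, by omega, by omega⟩

theorem InvolSpace.mem_set (d : InvolSpace Q m r) (x : H5.orth Q) (hx : orderOf x = 2) :
    orthInv x ∈ typeBC m ∪ typeA r := by
  classical
  obtain ⟨⟨h1, h2⟩, h3⟩ := d.inv_facts x hx
  rw [orthInv, Finset.mem_union, mem_typeBC, mem_typeA]
  by_cases hs : ∀ w ∈ H5.resid x, Q w = 0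
  · exact Or.inr ⟨h3 hs, by simpa using hs⟩
  · exact Or.inl ⟨h1, h2, by simpa using hs⟩

theorem InvolSpace.exists_inv (d : InvolSpace Q m r) (i : ℕ × Bool) (hi : i ∈ typeBC m ∪ typeA r) :
    ∃ x : H5.orth Q, orderOf x = 2 ∧ orthInv x = i := by
  obtain ⟨s, b⟩ := i
  rw [Finset.mem_union, mem_typeBC, mem_typeA] at hi
  suffices h : ∃ x : H5.orth Q, x * x = 1 ∧ orthInv x = (s, b) by
    obtain ⟨x, hx, he⟩ := h
    refine ⟨x, orderOf_eq_prime_iff.mpr ⟨by rw [pow_two, hx], fun h1 => ?_⟩, he⟩
    have hs : H5.rk x = s := congrArg Prod.fst he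
    rw [h1, H5.rk_one] at hs
    rcases hi with ⟨h, -, -⟩ | ⟨⟨k, h, -, rfl⟩, -⟩ <;> omega
  rcases hi with ⟨h1, h2, rfl⟩ | ⟨⟨k, h1, h2, rfl⟩, rfl⟩
  · obtain ⟨a, ha, haa, hQa⟩ := d.vecs
    exact exists_model_nonalt d.nd h1 (a ∘ Fin.castLE h2) (ha.comp _ (Fin.castLE_injective _))
      (fun i j => haa _ _) fun i => hQa _
  · obtain ⟨c, hc, hcc, hQc⟩ := d.sing
    let e : Fin k ⊕ Fin k → Fin (2 * r) := fun i => Fin.castLE (by omega : k + k ≤ 2 * r) (finSumFinEquiv i)
    exact exists_model_alt d.nd (c ∘ e)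
      (hc.comp _ ((Fin.castLE_injective _).comp finSumFinEquiv.injective)) (fun i j => hcc _ _) fun i => hQc _

/-- Involution classes of the full orthogonal group. -/
theorem InvolSpace.card_orth_classes (d : InvolSpace Q m r) :
    Nat.card {C : ConjClasses (H5.orth Q) // ∃ g : H5.orth Q, ConjClasses.mk g = C ∧ orderOf g = 2} = m + r := by
  rw [card_involution_classes orthInv (typeBC m ∪ typeA r)
    (fun x y hx hy => orth_isConj_iff d.nd x y (mul_self_of_orderOf_two hx) (mul_self_of_orderOf_two hy))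
    d.mem_set d.exists_inv, card_typeBC_union]

omit [FiniteDimensional F V] [Fintype F] [Fintype V] [CharP F 2] in
theorem orthInv_fst (x : H5.orth Q) : (orthInv x).1 = H5.rk x := rfl

/-- Involution classes of `Ω`. -/
theorem InvolSpace.card_omega_classes (d : InvolSpace Q m r) (hm : 1 ≤ m)
    (hΩ : ∀ g : H5.orth Q, g ∈ commutator (H5.orth Q) ↔ Even (H5.rk g))
    (hcent : 2 * r = m → ∀ x : H5.orth Q, x * x = 1 → (∀ u ∈ H5.fixer x, Q u = 0) →
      ∀ g, g * x = x * g → g ∈ commutator (H5.orth Q)) :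
    Nat.card {C : ConjClasses (commutator (H5.orth Q)) // ∃ g : commutator (H5.orth Q),
        ConjClasses.mk g = C ∧ orderOf g = 2} = m / 2 + r + (if 2 * r = m then 1 else 0) := by
  classical
  obtain ⟨a, -, -, hQa⟩ := d.vecs
  have hv : Q (a ⟨0, hm⟩) ≠ 0 := by rw [hQa]; exact one_ne_zero
  have hflip : ∀ v (g : H5.orth Q), Q v ≠ 0 → (Even (H5.rk (H5.refl Q v * g)) ↔ ¬ Even (H5.rk g)) := by
    intro v g hv
    by_cases hm : v ∈ H5.resid g
    · rw [← H5.rk_refl_mul_of_mem hv hm, Nat.even_add_one, not_not]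
    · rw [H5.rk_refl_mul_of_not_mem d.nd hv hm, Nat.even_add_one]
  have hidx : (commutator (H5.orth Q)).index = 2 := by
    refine Subgroup.index_eq_two_iff.mpr ⟨H5.refl Q (a ⟨0, hm⟩), fun g => ?_⟩
    have e : g * H5.refl Q (a ⟨0, hm⟩) = H5.refl Q ((g : V ≃ₗ[F] V) (a ⟨0, hm⟩)) * g := by
      rw [← H5.refl_conj, inv_mul_cancel_right]
    rw [hΩ, hΩ, e, hflip _ _ (by rw [H5.orth_map]; exact hv)]
    by_cases hg : Even (H5.rk g) <;> simp [hg, Xor']
  rw [card_involution_classes_index_two (commutator (H5.orth Q)) hidx orthInv (typeC (m / 2) ∪ typeA r)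
    (if 2 * r = m then {(m, true)} else ∅) ?_
    (fun x y hx hy => orth_isConj_iff d.nd x y (mul_self_of_orderOf_two hx) (mul_self_of_orderOf_two hy))
    ?_ ?_ ?_, card_typeC_union]
  · split_ifs <;> simp
  · split_ifs with h
    · rw [Finset.singleton_subset_iff, Finset.mem_union, mem_typeA]
      exact Or.inr ⟨⟨r, by omega, le_rfl, h.symm⟩, rfl⟩
    · exact Finset.empty_subset _
  · intro x hxH hx
    have he := (hΩ x).mp hxH
    have hm' := d.mem_set x hx
    rcases hinv : orthInv x with ⟨s, b⟩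
    rw [hinv] at hm'
    have hs : H5.rk x = s := congrArg Prod.fst hinv
    rw [Finset.mem_union, mem_typeBC, mem_typeA] at hm'
    rw [Finset.mem_union, mem_typeC, mem_typeA]
    obtain ⟨k, hk⟩ := he
    rcases hm' with ⟨h1, h2, h3⟩ | h
    · exact Or.inl ⟨⟨k, by omega, by omega, by omega⟩, h3⟩
    · exact Or.inr h
  · intro i hi
    obtain ⟨s, b⟩ := i
    rw [Finset.mem_union, mem_typeC, mem_typeA] at hi
    have hi' : (s, b) ∈ typeBC m ∪ typeA r := by
      rw [Finset.mem_union, mem_typeBC, mem_typeA]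
      rcases hi with ⟨⟨k, h1, h2, rfl⟩, h3⟩ | h
      · exact Or.inl ⟨by omega, by omega, h3⟩
      · exact Or.inr h
    obtain ⟨x, hx, he⟩ := d.exists_inv _ hi'
    refine ⟨x, (hΩ x).mpr ?_, hx, he⟩
    have hs : H5.rk x = s := congrArg Prod.fst he
    rw [hs]
    rcases hi with ⟨⟨k, -, -, rfl⟩, -⟩ | ⟨⟨k, -, -, rfl⟩, -⟩ <;> exact even_two_mul k
  · intro x hxH hx
    have h2 := mul_self_of_orderOf_two hx
    constructor
    · intro hT g hg
      by_cases hrm : 2 * r = m
      · simp only [if_pos hrm, Finset.mem_singleton, orthInv, Prod.mk.injEq, decide_eq_true_eq] at hT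
        refine hcent hrm x h2 ?_ g hg
        have hle : H5.resid x ≤ H5.fixer x := resid_le_fixer x h2
        have h1 := H5.rk_add_finrank_fixer x
        rw [hT.1, d.dim] at h1
        have e : H5.resid x = H5.fixer x := Submodule.eq_of_le_of_finrank_eq hle (by
          show H5.rk x = _
          omega)
        intro u hu
        exact hT.2 u (e ▸ hu)
      · rw [if_neg hrm] at hT
        exact absurd hT (Finset.notMem_empty _)
    · intro hall
      have hz : ∀ u ∈ H5.fixer x, Q u = 0 := by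
        intro u hu
        by_contra hQu
        have := hall (H5.refl Q u) (refl_commute_of_fixed x (H5.mem_fixer.mp hu)).symm
        rw [hΩ, ← mul_one (H5.refl Q u), hflip u 1 hQu, H5.rk_one] at this
        exact this (by simp)
      obtain ⟨hrk, he⟩ := involution_singular_fixer d.nd x h2 hz
      rw [d.dim] at hrk
      have hres : ∀ w ∈ H5.resid x, Q w = 0 := fun w hw => hz w (he ▸ hw)
      obtain ⟨k, -, hk, hk'⟩ := (d.inv_facts x hx).2 hres
      have := d.le
      rw [if_pos (by omega)]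
      simp only [Finset.mem_singleton, orthInv, Prod.mk.injEq, decide_eq_true_eq]
      exact ⟨by omega, hres⟩

end Orth

section Std

variable {F : Type*} [Field F] [CharP F 2]

theorem li_of_coord {ι κ : Type*} [Fintype κ] [DecidableEq κ] (a : κ → ι → F) (p : κ → ι)
    (h : ∀ i j, a i (p j) = if i = j then 1 else 0) : LinearIndependent F a := by
  rw [Fintype.linearIndependent_iff]
  intro g hg j
  have := congrFun hg (p j)
  simpa [Finset.sum_apply, h] using this

variable [Fintype F]

/-- The hyperbolic space. -/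
theorem involSpace_plus (m : ℕ) : InvolSpace (H4.qPlus m F) m (m / 2) where
  nd := qPlus_nd m
  dim := by rw [Module.finrank_fintype_fun_eq_card]; simp; omega
  le := by omega
  bound W _ h2 h3 := by
    obtain ⟨k, hk⟩ := h3
    omega
  vecs := by
    refine ⟨fun i => Pi.single (.inl i) 1 + Pi.single (.inr i) 1,
      li_of_coord _ (fun i => .inl i) fun i j => by simp [Pi.single_apply, eq_comm], fun i j => ?_, fun i => ?_⟩
    · rw [polar_qPlus_eq_sympForm, H2.sympForm_apply]
      exact Finset.sum_eq_zero fun l _ => by simp [Pi.single_apply]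
    · rw [H4.coe_qPlus, Cfsg.quadFormPlus]
      simp [Pi.single_apply]
  sing := by
    refine ⟨fun i => Pi.single (.inl (Fin.castLE (by omega) i)) 1,
      li_of_coord _ (fun i => .inl (Fin.castLE (by omega) i)) fun i j => by
        simp [Pi.single_apply, eq_comm, (Fin.castLE_injective _).eq_iff],
      fun i j => ?_, fun i => ?_⟩
    · rw [polar_qPlus_eq_sympForm, H2.sympForm_apply]
      exact Finset.sum_eq_zero fun l _ => by simp [Pi.single_apply]
    · rw [H4.coe_qPlus, Cfsg.quadFormPlus]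
      simp [Pi.single_apply]

/-- The elliptic space. -/
theorem involSpace_minus (n : ℕ) {a b : F}
    (hab : ∀ z₁ z₂ : F, z₁ ^ 2 + a * z₁ * z₂ + b * z₂ ^ 2 = 0 → z₁ = 0 ∧ z₂ = 0) :
    InvolSpace (H4.qMinus n F a b) (n + 1) (n / 2) where
  nd := qMinus_nd n hab
  dim := by rw [Module.finrank_fintype_fun_eq_card]; simp; omega
  le := by omega
  bound W hW h2 h3 := by
    have := qMinus_singular_finrank_ne n hab hW
    obtain ⟨k, hk⟩ := h3
    omega
  vecs := by
    let v : Fin (n + 1) → ((Fin n ⊕ Fin n) ⊕ Fin 2 → F) := Fin.lastCases (Pi.single (.inr 0) 1)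
      fun i => Pi.single (.inl (.inl i)) 1 + Pi.single (.inl (.inr i)) 1
    refine ⟨v, li_of_coord _ (Fin.lastCases (.inr 0) fun i => .inl (.inl i)) ?_, ?_, ?_⟩
    · intro i j
      induction i using Fin.lastCases <;> induction j using Fin.lastCases <;>
        simp [v, Pi.single_apply, eq_comm, Fin.castSucc_ne_last, (Fin.castSucc_ne_last _).symm]
    · intro i j
      rw [H4.polar_qMinus]
      induction i using Fin.lastCases <;> induction j using Fin.lastCases <;>
        simp [v, Pi.single_apply, CharTwo.two_eq_zero, Finset.sum_ite_eq', CharTwo.add_self_eq_zero]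
    · intro i
      rw [H4.coe_qMinus, Cfsg.quadFormMinus]
      induction i using Fin.lastCases <;> simp [v, Pi.single_apply]
  sing := by
    refine ⟨fun i => Pi.single (.inl (.inl (Fin.castLE (by omega) i))) 1,
      li_of_coord _ (fun i => .inl (.inl (Fin.castLE (by omega) i))) fun i j => by
        simp [Pi.single_apply, eq_comm, (Fin.castLE_injective _).eq_iff],
      fun i j => ?_, fun i => ?_⟩
    · rw [H4.polar_qMinus]
      simp [Pi.single_apply]
    · rw [H4.coe_qMinus, Cfsg.quadFormMinus]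
      simp [Pi.single_apply]

/-- `Ω` of a matrix orthogonal group as the commutator subgroup of the abstract one. -/
noncomputable def omegaEquiv {ι : Type} [Fintype ι] [DecidableEq ι] (Q : QuadraticForm F (ι → F))
    {f : (ι → F) → F} (hf : ⇑Q = f) : Cfsg.Omega F f ≃* commutator (H5.orth Q) where
  toEquiv := (H5.isoEquiv Q hf).toEquiv.subtypeEquiv fun g => H5.mem_Omega_iff Q hf g
  map_mul' g h := Subtype.ext (map_mul (H5.isoEquiv Q hf) g.1 h.1)

/-- Involution classes of the symplectic group. -/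
theorem card_sp_classes (m : ℕ) :
    Nat.card {C : ConjClasses ↥(Matrix.symplecticGroup (Fin m) F) //
      ∃ g : Matrix.symplecticGroup (Fin m) F, ConjClasses.mk g = C ∧ orderOf g = 2} = m + m / 2 := by
  classical
  let inv : Matrix.symplecticGroup (Fin m) F → ℕ × Bool := fun a =>
    (((a : Matrix (Fin m ⊕ Fin m) (Fin m ⊕ Fin m) F) - 1).rank,
      decide (∀ v, Cfsg.sympForm m F v (a.1.mulVec v) = 0))
  rw [card_involution_classes inv (typeBC m ∪ typeA (m / 2)) ?_ ?_ ?_, card_typeBC_union]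
  · intro x y hx hy
    rw [sp_isConj_iff x y (hx ▸ pow_orderOf_eq_one x) (hy ▸ pow_orderOf_eq_one y)]
    simp only [inv, Prod.mk.injEq, decide_eq_decide]
  · intro x hx
    have h2 : x ^ 2 = 1 := hx ▸ pow_orderOf_eq_one x
    have hpos : ((x : Matrix (Fin m ⊕ Fin m) (Fin m ⊕ Fin m) F) - 1).rank ≠ 0 := by
      intro h0
      have hb : LinearMap.range (spN x) = ⊥ := Submodule.finrank_eq_zero.mp h0
      have : x = 1 := by
        refine H2.ext_of_mulVec fun v => ?_
        have hm : spN x v ∈ LinearMap.range (spN x) := LinearMap.mem_range_self _ _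
        rw [hb, Submodule.mem_bot, spN_apply, sub_eq_zero] at hm
        simp [hm]
      rw [this, orderOf_one] at hx
      omega
    rw [Finset.mem_union, mem_typeBC, mem_typeA]
    by_cases ha : ∀ v, Cfsg.sympForm m F v (x.1.mulVec v) = 0
    · have hle := (card_centralizer_alt x h2 rfl ha).1
      obtain ⟨k, hk⟩ := (invData_spN x h2).even_rank ((isAltType_spN_iff x).mpr ha)
      rw [finrank_range_spN] at hk
      exact Or.inr ⟨⟨k, by omega, by omega, by omega⟩, decide_eq_true ha⟩
    · have hle := (card_centralizer_nonalt x h2 rfl ha).1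
      exact Or.inl ⟨by omega, hle, decide_eq_false ha⟩
  · intro i hi
    obtain ⟨T, hT, hTi⟩ := (involSpace_plus (F := F) m).exists_inv i hi
    set g := (H5.isoEquiv _ (H4.coe_qPlus m)).symm T with hg
    have hgT : H5.isoEquiv _ (H4.coe_qPlus m) g = T := MulEquiv.apply_symm_apply _ T
    have hT2 := mul_self_of_orderOf_two hT
    have hg2 : g ^ 2 = 1 := by rw [pow_two, hg, ← map_mul, hT2, map_one]
    refine ⟨plusToSp g, orderOf_eq_prime_iff.mpr ⟨plusToSp_sq hg2, fun h1 => ?_⟩, ?_⟩
    · have : g = 1 := Subtype.ext (Units.ext (congrArg Subtype.val h1))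
      rw [this, map_one] at hgT
      rw [← hgT, orderOf_one] at hT
      omega
    · rw [← hTi, ← hgT]
      simp only [inv, orthInv, Prod.mk.injEq, decide_eq_decide]
      refine ⟨(rk_isoEquiv _ (H4.coe_qPlus m) g).symm, ⟨fun h => ?_, fun h v => ?_⟩⟩
      · rintro _ ⟨v, rfl⟩
        rw [map_dLin_char_two, H5.isoEquiv_apply, polar_qPlus_eq_sympForm]
        exact h v
      · have := h _ (LinearMap.mem_range_self _ v)
        rw [map_dLin_char_two, H5.isoEquiv_apply, polar_qPlus_eq_sympForm] at this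
        exact this

end Std

end Cfsg.Agent.H65
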