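import Cfsg.Agent.H65.SpInvol
import Cfsg.Agent.H65.OrthConj
import Cfsg.Agent.H65.OmegaTwo
import Cfsg.Agent.H4.Decomp

/-!
Involution classes of orthogonal groups in characteristic two and of their subgroups of index two.
-/

set_option autoImplicit false

open QuadraticMap

namespace Cfsg.Agent.H65

section General

variable {G : Type*} [Group G]

/-- Counting classes of elements of order two through an invariant. -/
theorem card_involution_classes {I : Type*} (inv : G → I) (S : Finset I)
    (hconj : ∀ x y : G, orderOf x = 2 → orderOf y = 2 → (IsConj x y ↔ inv x = inv y))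
    (hmem : ∀ x : G, orderOf x = 2 → inv x ∈ S) (hsurj : ∀ i ∈ S, ∃ x : G, orderOf x = 2 ∧ inv x = i) :
    Nat.card {C : ConjClasses G // ∃ g : G, ConjClasses.mk g = C ∧ orderOf g = 2} = S.card := by
  rw [← Nat.card_eq_finsetCard]
  refine Nat.card_eq_of_bijective (fun C => ⟨inv C.2.choose, hmem _ C.2.choose_spec.2⟩) ⟨?_, ?_⟩
  · rintro ⟨C, hC⟩ ⟨D, hD⟩ h
    have h' : inv hC.choose = inv hD.choose := congrArg Subtype.val h
    refine Subtype.ext ?_
    show C = D
    rw [← hC.choose_spec.1, ← hD.choose_spec.1, ConjClasses.mk_eq_mk_iff_isConj,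
      hconj _ _ hC.choose_spec.2 hD.choose_spec.2, h']
  · rintro ⟨i, hi⟩
    obtain ⟨x, hx, hxi⟩ := hsurj i hi
    refine ⟨⟨ConjClasses.mk x, x, rfl, hx⟩, Subtype.ext ?_⟩
    have hC : ∃ g : G, ConjClasses.mk g = ConjClasses.mk x ∧ orderOf g = 2 := ⟨x, rfl, hx⟩
    show inv hC.choose = i
    rw [← hxi, ← hconj _ _ hC.choose_spec.2 hx, ← ConjClasses.mk_eq_mk_iff_isConj, hC.choose_spec.1]

/-- The refinement of an invariant for a subgroup of index two. -/
noncomputable def splitInv (H : Subgroup G) {I : Type*} (inv : G → I) (x : H) : I × Bool := by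
  classical
  exact (inv x, decide (∃ g ∈ H, g * Classical.epsilon (fun y => y ∈ H ∧ orderOf y = 2 ∧ inv y = inv x) * g⁻¹ = x))

/-- Classes of elements of order two in a subgroup of index two. -/
theorem card_involution_classes_index_two (H : Subgroup G) (hH : H.index = 2) {I : Type*} [DecidableEq I]
    (inv : G → I) (S T : Finset I) (hT : T ⊆ S)
    (hconj : ∀ x y : G, orderOf x = 2 → orderOf y = 2 → (IsConj x y ↔ inv x = inv y))
    (hmem : ∀ x ∈ H, orderOf x = 2 → inv x ∈ S)
    (hsurj : ∀ i ∈ S, ∃ x ∈ H, orderOf x = 2 ∧ inv x = i)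
    (hsplit : ∀ x ∈ H, orderOf x = 2 → (inv x ∈ T ↔ ∀ g, g * x = x * g → g ∈ H)) :
    Nat.card {C : ConjClasses H // ∃ g : H, ConjClasses.mk g = C ∧ orderOf g = 2} = S.card + T.card := by
  classical
  obtain ⟨r, hr⟩ : ∃ r, r ∉ H := by
    by_contra h
    push Not at h
    rw [show H = ⊤ from eq_top_iff.mpr fun x _ => h x, Subgroup.index_top] at hH
    omega
  have hnorm : H.Normal := Subgroup.normal_of_index_eq_two hH
  set P : I → G → Prop := fun i y => y ∈ H ∧ orderOf y = 2 ∧ inv y = i with hP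
  have hrep : ∀ i ∈ S, P i (Classical.epsilon (P i)) := fun i hi => by
    obtain ⟨x, h1, h2, h3⟩ := hsurj i hi
    exact Classical.epsilon_spec (p := P i) ⟨x, h1, h2, h3⟩
  have hord : ∀ x : H, orderOf x = orderOf (x : G) := fun x => (Subgroup.orderOf_coe x).symm
  have hsp : ∀ x : H, splitInv H inv x = (inv x, decide (∃ g ∈ H, g * Classical.epsilon (P (inv x)) * g⁻¹ = x)) :=
    fun x => rfl
  rw [card_involution_classes (G := H) (splitInv H inv) (S ×ˢ {true} ∪ T ×ˢ {false}) ?_ ?_ ?_,
    Finset.card_union_of_disjoint, Finset.card_product, Finset.card_product, Finset.card_singleton,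
    Finset.card_singleton, mul_one, mul_one]
  · rw [Finset.disjoint_left]
    rintro ⟨i, b⟩ h1 h2
    simp only [Finset.mem_product, Finset.mem_singleton] at h1 h2
    simp [h1.2] at h2
  · intro x y hx hy
    rw [hord] at hx hy
    constructor
    · intro h
      obtain ⟨c, hc⟩ := isConj_iff.mp h
      have hc' : (c : G) * x * (c : G)⁻¹ = y := congrArg Subtype.val hc
      have hi : inv (x : G) = inv (y : G) := (hconj _ _ hx hy).mp (isConj_iff.mpr ⟨c, hc'⟩)
      rw [hsp, hsp, ← hi]
      congr 1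
      rw [decide_eq_decide]
      constructor
      · rintro ⟨g, hg, e⟩
        refine ⟨c * g, H.mul_mem c.2 hg, ?_⟩
        calc (c : G) * g * Classical.epsilon (P (inv (x : G))) * ((c : G) * g)⁻¹
            = c * (g * Classical.epsilon (P (inv (x : G))) * g⁻¹) * (c : G)⁻¹ := by group
          _ = y := by rw [e, hc']
      · rintro ⟨g, hg, e⟩
        refine ⟨(c : G)⁻¹ * g, H.mul_mem (H.inv_mem c.2) hg, ?_⟩
        calc (c : G)⁻¹ * g * Classical.epsilon (P (inv (x : G))) * ((c : G)⁻¹ * g)⁻¹
            = (c : G)⁻¹ * (g * Classical.epsilon (P (inv (x : G))) * g⁻¹) * c := by group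
          _ = (c : G)⁻¹ * y * c := by rw [e]
          _ = x := by rw [← hc']; group
    · intro h
      rw [hsp, hsp] at h
      obtain ⟨hi, hb⟩ := Prod.mk.inj h
      rw [decide_eq_decide] at hb
      set e := Classical.epsilon (P (inv (x : G))) with he
      rw [← hi] at hb
      obtain ⟨-, heo, hei⟩ := hrep _ (hmem _ x.2 hx)
      obtain ⟨g, hg⟩ := isConj_iff.mp ((hconj e x heo hx).mpr hei)
      obtain ⟨k, hk⟩ := isConj_iff.mp ((hconj e y heo hy).mpr (hei.trans hi))
      suffices hkg : k * g⁻¹ ∈ H ∨ (∃ a ∈ H, ∃ b ∈ H, a * e * a⁻¹ = x ∧ b * e * b⁻¹ = y) by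
        rcases hkg with hkg | ⟨a, ha, b, hb', e1, e2⟩
        · exact isConj_iff.mpr ⟨⟨k * g⁻¹, hkg⟩, Subtype.ext (by
            show k * g⁻¹ * (x : G) * (k * g⁻¹)⁻¹ = y
            rw [← hk, ← hg]; group)⟩
        · exact isConj_iff.mpr ⟨⟨b * a⁻¹, H.mul_mem hb' (H.inv_mem ha)⟩, Subtype.ext (by
            show b * a⁻¹ * (x : G) * (b * a⁻¹)⁻¹ = y
            rw [← e1, ← e2]; group)⟩
      by_cases hx' : ∃ a ∈ H, a * e * a⁻¹ = x
      · obtain ⟨b, hb'⟩ := hb.mp hx'
        obtain ⟨a, ha⟩ := hx'
        exact Or.inr ⟨a, ha.1, b, hb'.1, ha.2, hb'.2⟩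
      · left
        rw [Subgroup.mul_mem_iff_of_index_two hH, H.inv_mem_iff]
        exact iff_of_false (fun hkH => hx' (hb.mpr ⟨k, hkH, hk⟩)) (fun hgH => hx' ⟨g, hgH, hg⟩)
  · intro x hx
    rw [hord] at hx
    rw [hsp]
    simp only [Finset.mem_union, Finset.mem_product, Finset.mem_singleton, decide_eq_true_eq,
      decide_eq_false_iff_not]
    by_cases hb : ∃ g ∈ H, g * Classical.epsilon (P (inv (x : G))) * g⁻¹ = x
    · exact Or.inl ⟨hmem _ x.2 hx, hb⟩
    · refine Or.inr ⟨?_, hb⟩
      obtain ⟨heH, heo, hei⟩ := hrep _ (hmem _ x.2 hx)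
      rw [← hei, hsplit _ heH heo]
      intro g hg
      obtain ⟨k, hk⟩ := isConj_iff.mp ((hconj _ _ heo hx).mpr hei)
      by_contra hgH
      refine hb ⟨k * g, ?_, ?_⟩
      · rw [Subgroup.mul_mem_iff_of_index_two hH]
        exact iff_of_false (fun hkH => hb ⟨k, hkH, hk⟩) hgH
      · calc k * g * Classical.epsilon (P (inv (x : G))) * (k * g)⁻¹
            = k * (g * Classical.epsilon (P (inv (x : G)))) * g⁻¹ * k⁻¹ := by group
          _ = k * Classical.epsilon (P (inv (x : G))) * k⁻¹ := by rw [hg]; group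
          _ = x := hk
  · intro p hp
    obtain ⟨i, b⟩ := p
    simp only [Finset.mem_union, Finset.mem_product, Finset.mem_singleton] at hp
    rcases hp with ⟨hi, rfl⟩ | ⟨hi, rfl⟩
    · obtain ⟨heH, heo, hei⟩ := hrep i hi
      refine ⟨⟨_, heH⟩, by rw [hord]; exact heo, ?_⟩
      rw [hsp]
      simp only [hei, Prod.mk.injEq, true_and, decide_eq_true_eq]
      exact ⟨1, H.one_mem, by simp⟩
    · obtain ⟨heH, heo, hei⟩ := hrep i (hT hi)
      set e := Classical.epsilon (P i) with he
      have hyo : orderOf (r * e * r⁻¹) = 2 := by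
        rw [← MulAut.conj_apply, MulEquiv.orderOf_eq, heo]
      have hyi : inv (r * e * r⁻¹) = i :=
        ((hconj _ _ heo hyo).mp (isConj_iff.mpr ⟨r, rfl⟩)).symm.trans hei
      refine ⟨⟨r * e * r⁻¹, hnorm.conj_mem _ heH r⟩, by rw [hord]; exact hyo, ?_⟩
      rw [hsp]
      simp only [hyi, Prod.mk.injEq, true_and, decide_eq_false_iff_not, ← he]
      rintro ⟨g, hg, hge⟩
      have hc := (hsplit e heH heo).mp (hei.symm ▸ hi) (r⁻¹ * g) (by
        calc r⁻¹ * g * e = r⁻¹ * (g * e * g⁻¹) * g := by group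
          _ = e * (r⁻¹ * g) := by rw [hge]; group)
      rw [Subgroup.mul_mem_iff_of_index_two hH] at hc
      exact hr (H.inv_mem_iff.mp (hc.mpr hg))

end General

section Orth

variable {F V : Type*} [Field F] [CharP F 2] [AddCommGroup V] [Module F V] [FiniteDimensional F V]
  {Q : QuadraticForm F V}

/-- The residual dimension and whether the residual space is totally singular. -/
noncomputable def orthInv (T : H5.orth Q) : ℕ × Bool := by
  classical exact (H5.rk T, decide (∀ w ∈ H5.resid T, Q w = 0))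

omit [FiniteDimensional F V] in
theorem polar_apply_self_eq (T : H5.orth Q) (v : V) :
    Q (H5.dLin T v) = polarBilin Q v (H5.dLin T v) := by
  rw [polarBilin_apply_apply, H5.dLin_apply, polar_sub_right, polar_self_char_two, sub_zero,
    H5.map_sub', H5.orth_map, polar_comm, CharTwo.sub_eq_add, CharTwo.add_self_eq_zero, zero_add]

theorem invData_orth (hQ : (polarBilin Q).Nondegenerate) (T : H5.orth Q) (hT : T * T = 1) :
    InvData (polarBilin Q) (H5.dLin T) := by
  refine ⟨hQ, polar_self_char_two Q, fun v => ?_, fun u v => ?_⟩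
  · have h1 : (T : V ≃ₗ[F] V) ((T : V ≃ₗ[F] V) v) = v := by rw [← H5.orth_mul_apply, hT]; rfl
    rw [H5.dLin_apply, H5.dLin_apply, map_sub, h1, ← neg_sub ((T : V ≃ₗ[F] V) v) v, ← neg_one_smul F,
      CharTwo.neg_eq, one_smul, sub_self]
  · simp only [polarBilin_apply_apply, H5.dLin_apply, polar_sub_left, polar_sub_right]
    rw [sub_left_inj]
    conv_rhs => rw [← H5.orth_polar T u, ← H5.orth_mul_apply, hT]
    rfl

omit [FiniteDimensional F V] in
theorem isAltType_orth_iff (T : H5.orth Q) :
    IsAltType (polarBilin Q) (H5.dLin T) ↔ ∀ w ∈ H5.resid T, Q w = 0 := by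
  refine ⟨?_, fun h v => ?_⟩
  · rintro h _ ⟨v, rfl⟩
    rw [polar_apply_self_eq]; exact h v
  · rw [← polar_apply_self_eq]; exact h _ ⟨v, rfl⟩

variable [Fintype F] [Fintype V]

/-- Conjugacy of involutions of `O(Q)`. -/
theorem orth_isConj_iff (hQ : (polarBilin Q).Nondegenerate) (x y : H5.orth Q) (hx : x * x = 1)
    (hy : y * y = 1) : IsConj x y ↔ orthInv x = orthInv y := by
  classical
  have key : orthInv x = orthInv y ↔ Module.finrank F (LinearMap.range (H5.dLin x)) =
      Module.finrank F (LinearMap.range (H5.dLin y)) ∧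
        (IsAltType (polarBilin Q) (H5.dLin x) ↔ IsAltType (polarBilin Q) (H5.dLin y)) := by
    simp only [orthInv, Prod.mk.injEq, decide_eq_decide, isAltType_orth_iff]
    rfl
  rw [key, ← invData_conj_iff isSquare_char_two (invData_orth hQ x hx) (invData_orth hQ y hy)]
  constructor
  · intro h
    obtain ⟨c, hc⟩ := isConj_iff.mp h
    rw [mul_inv_eq_iff_eq_mul] at hc
    refine ⟨c.1, qIsoms_le_isometries Q c.2, fun v => ?_⟩
    rw [H5.dLin_apply, H5.dLin_apply, map_sub, ← H5.orth_mul_apply, hc, H5.orth_mul_apply]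
  · rintro ⟨g, hg, hgN⟩
    obtain ⟨g', hg', hc⟩ := orth_conj_of_symp_conj Q hQ x.2 y.2 hg fun v => by
      have := hgN v
      rw [H5.dLin_apply, H5.dLin_apply, map_sub] at this
      exact sub_left_inj.mp this
    refine isConj_iff.mpr ⟨⟨g', hg'⟩, ?_⟩
    rw [mul_inv_eq_iff_eq_mul]
    exact H5.orth_ext fun v => hc v

omit [Fintype F] [Fintype V] in
theorem rk_le_half (hQ : (polarBilin Q).Nondegenerate) (T : H5.orth Q) (hT : T * T = 1) :
    2 * H5.rk T ≤ Module.finrank F V := by
  have hle : H5.resid T ≤ H5.fixer T := by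
    rintro _ ⟨v, rfl⟩
    exact LinearMap.mem_ker.mpr ((invData_orth hQ T hT).sq v)
  have h1 := H5.rk_add_finrank_fixer T
  have h2 : H5.rk T ≤ Module.finrank F (H5.fixer T) := Submodule.finrank_mono hle
  omega

omit [Fintype F] [Fintype V] in
theorem even_rk_of_singular (hQ : (polarBilin Q).Nondegenerate) (T : H5.orth Q) (hT : T * T = 1)
    (h : ∀ w ∈ H5.resid T, Q w = 0) : Even (H5.rk T) :=
  (invData_orth hQ T hT).even_rank ((isAltType_orth_iff T).mpr h)

omit [Fintype F] [Fintype V] in
/-- An isometry from a square-zero map. -/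
theorem exists_orth_of_sq_zero (N : V →ₗ[F] V) (h2 : ∀ v, N (N v) = 0)
    (hQN : ∀ v, Q (v + N v) = Q v) : ∃ T : H5.orth Q, T * T = 1 ∧ H5.dLin T = N := by
  have hinv : Function.Involutive (LinearMap.id + N : V →ₗ[F] V) := fun v => by
    simp only [LinearMap.add_apply, LinearMap.id_apply, map_add, h2, add_zero]
    rw [add_assoc, ← two_smul F (N v), CharTwo.two_eq_zero, zero_smul, add_zero]
  refine ⟨⟨LinearEquiv.ofInvolutive _ hinv, fun v => hQN v⟩, H5.orth_ext fun v => hinv v, ?_⟩
  refine LinearMap.ext fun v => ?_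
  rw [H5.dLin_apply]
  show v + N v - v = N v
  abel

omit [Fintype F] [Fintype V] [CharP F 2] in
theorem pi_polar_surjective (hQ : (polarBilin Q).Nondegenerate) {ι : Type*} [Fintype ι] (c : ι → V)
    (hc : LinearIndependent F c) :
    Function.Surjective (LinearMap.pi fun i => polarBilin Q (c i)) := by
  classical
  rw [← LinearMap.range_eq_top]
  refine Submodule.eq_top_of_finrank_eq ?_
  have hk : LinearMap.ker (LinearMap.pi fun i => polarBilin Q (c i)) = H4.perp Q (Submodule.span F (Set.range c)) := by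
    ext v
    rw [H4.mem_perp_span, LinearMap.mem_ker, funext_iff]
    simp
  have h1 := LinearMap.finrank_range_add_finrank_ker (LinearMap.pi fun i => polarBilin Q (c i))
  rw [hk, H4.finrank_perp hQ, finrank_span_eq_card hc] at h1
  have h2 := Submodule.finrank_le (Submodule.span F (Set.range c))
  rw [finrank_span_eq_card hc] at h2
  rw [Module.finrank_fintype_fun_eq_card]
  omega

omit [Fintype F] [Fintype V] in
/-- A product of commuting reflections of orthogonal vectors of norm one. -/
theorem exists_model_nonalt (hQ : (polarBilin Q).Nondegenerate) {s : ℕ} (hs : 0 < s) (a : Fin s → V)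
    (ha : LinearIndependent F a) (haa : ∀ i j, polar Q (a i) (a j) = 0) (hQa : ∀ i, Q (a i) = 1) :
    ∃ T : H5.orth Q, T * T = 1 ∧ orthInv T = (s, false) := by
  classical
  let P := LinearMap.pi fun i => polarBilin Q (a i)
  let N : V →ₗ[F] V := (Fintype.linearCombination F a).comp P
  have hN : ∀ v, N v = ∑ i, polar Q (a i) v • a i := fun v => by simp [N, P, Fintype.linearCombination_apply]
  have hz : ∀ v i, polar Q (a i) (N v) = 0 := fun v i => by
    rw [hN, ← polarBilin_apply_apply, map_sum]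
    simp [haa]
  have hQN : ∀ f : Fin s → F, Q (∑ i, f i • a i) = ∑ i, f i ^ 2 := fun f => by
    induction (Finset.univ : Finset (Fin s)) using Finset.induction with
    | empty => simp
    | insert i t hi ih =>
      have hp : polar Q (f i • a i) (∑ j ∈ t, f j • a j) = 0 := by
        rw [← polarBilin_apply_apply, map_sum (polarBilin Q (f i • a i))]
        simp [haa]
      rw [Finset.sum_insert hi, Finset.sum_insert hi, QuadraticMap.map_add Q, QuadraticMap.map_smul, hp]
      simp [hQa, ih, pow_two]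
  obtain ⟨T, hT, hTN⟩ := exists_orth_of_sq_zero (Q := Q) N (fun v => by rw [hN (N v)]; simp [hz]) (fun v => by
    rw [QuadraticMap.map_add Q, hN, hQN, ← polarBilin_apply_apply, map_sum]
    simp only [map_smul, smul_eq_mul, polarBilin_apply_apply, polar_comm Q v, ← pow_two]
    rw [add_assoc, CharTwo.add_self_eq_zero, add_zero])
  have hres : H5.resid T = Submodule.span F (Set.range a) := by
    rw [H5.resid, hTN, LinearMap.range_comp,
      LinearMap.range_eq_top.mpr (pi_polar_surjective hQ a ha), Submodule.map_top,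
      Fintype.range_linearCombination]
  refine ⟨T, hT, ?_⟩
  simp only [orthInv, Prod.mk.injEq, decide_eq_false_iff_not]
  refine ⟨by rw [H5.rk, hres, finrank_span_eq_card ha, Fintype.card_fin], fun h => ?_⟩
  have := h (a ⟨0, hs⟩) (hres ▸ Submodule.subset_span ⟨_, rfl⟩)
  rw [hQa] at this
  exact one_ne_zero this

omit [Fintype F] [Fintype V] in
/-- The model of type a. -/
theorem exists_model_alt (hQ : (polarBilin Q).Nondegenerate) {k : ℕ} (a : Fin k ⊕ Fin k → V)
    (ha : LinearIndependent F a) (haa : ∀ i j, polar Q (a i) (a j) = 0) (hQa : ∀ i, Q (a i) = 0) :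
    ∃ T : H5.orth Q, T * T = 1 ∧ orthInv T = (2 * k, true) := by
  classical
  let P := LinearMap.pi fun i => polarBilin Q (a i)
  let N : V →ₗ[F] V := (Fintype.linearCombination F (a ∘ Sum.swap)).comp P
  have hN : ∀ v, N v = ∑ i, polar Q (a i) v • a i.swap := fun v => by
    simp [N, P, Fintype.linearCombination_apply]
  have hz : ∀ v i, polar Q (a i) (N v) = 0 := fun v i => by
    rw [hN, ← polarBilin_apply_apply, map_sum]
    simp [haa]
  have hsing : ∀ w ∈ Submodule.span F (Set.range a), Q w = 0 := fun w hw =>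
    H4.singular_span hQa haa hw
  have hmem : ∀ v, N v ∈ Submodule.span F (Set.range a) := fun v => by
    rw [hN]; exact Submodule.sum_mem _ fun i _ => Submodule.smul_mem _ _ (Submodule.subset_span ⟨_, rfl⟩)
  obtain ⟨T, hT, hTN⟩ := exists_orth_of_sq_zero (Q := Q) N (fun v => by rw [hN (N v)]; simp [hz]) (fun v => by
    rw [QuadraticMap.map_add Q, hsing _ (hmem v), add_zero, hN, ← polarBilin_apply_apply, map_sum]
    simp only [map_smul, smul_eq_mul, polarBilin_apply_apply, polar_comm Q v, Fintype.sum_sum_type,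
      Sum.swap_inl, Sum.swap_inr]
    rw [add_eq_left, ← Finset.sum_add_distrib]
    exact Finset.sum_eq_zero fun i _ => by rw [mul_comm, CharTwo.add_self_eq_zero])
  have hsw : Function.Surjective (Sum.swap : Fin k ⊕ Fin k → Fin k ⊕ Fin k) :=
    fun x => ⟨x.swap, Sum.swap_swap x⟩
  have hres : H5.resid T = Submodule.span F (Set.range a) := by
    rw [H5.resid, hTN, LinearMap.range_comp,
      LinearMap.range_eq_top.mpr (pi_polar_surjective hQ a ha), Submodule.map_top,
      Fintype.range_linearCombination, hsw.range_comp]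
  refine ⟨T, hT, ?_⟩
  simp only [orthInv, Prod.mk.injEq, decide_eq_true_eq]
  refine ⟨by rw [H5.rk, hres, finrank_span_eq_card ha, Fintype.card_sum, Fintype.card_fin]; omega, ?_⟩
  rw [hres]; exact hsing

end Orth

end Cfsg.Agent.H65
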