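import Cfsg.Agent.H65.SymBilin

/-!
The number of matrices `A` with `A * Aᵀ = 1` over a finite field of characteristic two.
-/

set_option autoImplicit false

open Matrix

namespace Cfsg.Agent.H65

variable {F : Type*} [Field F] [CharP F 2] [Finite F]

/-- The number of orthonormal bases of the standard symmetric form. -/
noncomputable def onCount (F : Type*) [Field F] (n : ℕ) : ℕ :=
  Nat.card {A : Matrix (Fin n) (Fin n) F // A * Aᵀ = 1}

omit [CharP F 2] [Finite F] in
theorem mul_transpose_eq_one_iff {ι : Type*} [Fintype ι] [DecidableEq ι] (A : Matrix ι ι F) :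
    A * Aᵀ = 1 ↔ ∀ i j, A i ⬝ᵥ A j = if i = j then 1 else 0 := by
  rw [← Matrix.ext_iff]
  exact forall_congr' fun i => forall_congr' fun j => by
    rw [Matrix.one_apply, Matrix.mul_apply]; rfl

omit [CharP F 2] [Finite F] in
/-- Orthonormal families of a space with an orthonormal family correspond to orthogonal matrices. -/
theorem card_orthonormal_families {V : Type*} [AddCommGroup V] [Module F V] {n : ℕ}
    (β : LinearMap.BilinForm F V) (x : Fin n → V)
    (hx : ∀ i j, β (x i) (x j) = if i = j then 1 else 0) (hd : Module.finrank F V = n)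
    [FiniteDimensional F V] :
    Nat.card {y : Fin n → V // ∀ i j, β (y i) (y j) = if i = j then 1 else 0} = onCount F n := by
  classical
  have hli : LinearIndependent F x := by
    rw [Fintype.linearIndependent_iff]
    intro g hg j
    have := congrArg (fun v => β v (x j)) hg
    simpa [map_sum, LinearMap.sum_apply, hx] using this
  let b : Module.Basis (Fin n) F V :=
    basisOfLinearIndependentOfCardEqFinrank' x hli (by simp [hd])
  have hb : ∀ i, b i = x i := fun i => by simp [b]
  have hdot : ∀ u v, β u v = b.equivFun u ⬝ᵥ b.equivFun v := fun u v => by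
    conv_lhs => rw [← b.sum_equivFun u, ← b.sum_equivFun v]
    simp [map_sum, LinearMap.sum_apply, hb, hx, dotProduct, mul_comm]
  refine Nat.card_congr ((Equiv.piCongrRight fun _ => b.equivFun.toEquiv).subtypeEquiv fun y => ?_)
  refine Iff.trans ?_ (mul_transpose_eq_one_iff (Matrix.of fun i => b.equivFun (y i))).symm
  exact forall_congr' fun i => forall_congr' fun j => by rw [hdot]; rfl

omit [Finite F] in
theorem dotProduct_self_char_two {ι : Type*} [Fintype ι] (v : ι → F) : v ⬝ᵥ v = (∑ i, v i) ^ 2 := by
  rw [CharTwo.sum_sq]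
  exact Finset.sum_congr rfl fun i _ => (pow_two _).symm

omit [Finite F] in
theorem sum_eq_one_of_dot_self {ι : Type*} [Fintype ι] {v : ι → F} (h : v ⬝ᵥ v = 1) : ∑ i, v i = 1 := by
  rw [dotProduct_self_char_two] at h
  have h2 : (∑ i, v i + 1) ^ 2 = 0 := by rw [CharTwo.add_sq, h, one_pow, CharTwo.add_self_eq_zero]
  exact CharTwo.add_eq_zero.mp (pow_eq_zero_iff two_ne_zero |>.mp h2)

theorem onCount_one : onCount F 1 = 1 := by
  classical
  have : {A : Matrix (Fin 1) (Fin 1) F // A * Aᵀ = 1} ≃ Unit :=
    { toFun := fun _ => ()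
      invFun := fun _ => ⟨1, by simp⟩
      left_inv := fun A => by
        apply Subtype.ext
        ext i j
        have h := sum_eq_one_of_dot_self (((mul_transpose_eq_one_iff A.1).mp A.2 i i).trans (if_pos rfl))
        rw [Subsingleton.elim i 0, Subsingleton.elim j 0] at *
        simpa using h.symm
      right_inv := fun _ => rfl }
  rw [onCount, Nat.card_congr this, Nat.card_unique]

open Classical in
/-- A good first vector has the expected number of completions. -/
theorem card_completions {n : ℕ} (v : Fin (n + 2) → F) (h1 : ∑ i, v i = 1) :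
    Nat.card {y : Fin (n + 1) → Fin (n + 2) → F //
        (∀ i, v ⬝ᵥ y i = 0) ∧ ∀ i j, y i ⬝ᵥ y j = if i = j then 1 else 0} =
      if ∀ i, v i = 1 then 0 else onCount F (n + 1) := by
  classical
  split_ifs with hu
  · rw [Nat.card_eq_zero]
    refine Or.inl ⟨fun y => ?_⟩
    have hs := sum_eq_one_of_dot_self ((y.2.2 0 0).trans (if_pos rfl))
    have h0 := y.2.1 0
    simp [dotProduct, hu, hs] at h0
  · obtain ⟨i, j, hij⟩ : ∃ i j, v i ≠ v j := by
      by_contra hc
      push Not at hc
      refine hu fun i => ?_
      rw [Finset.sum_congr rfl fun k _ => hc k i, Finset.sum_const, Finset.card_univ, Fintype.card_fin,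
        nsmul_eq_mul] at h1
      rcases CharTwo.natCast_cases (R := F) (n + 2) with h | h <;> rw [h] at h1 <;> simp_all
    let P : Submodule F (Fin (n + 2) → F) :=
      LinearMap.ker ((dotProductBilin F F) v)
    let β : LinearMap.BilinForm F P := (dotProductBilin F F).compl₁₂ P.subtype P.subtype
    have hv : v ⬝ᵥ v = 1 := by rw [dotProduct_self_char_two, h1, one_pow]
    have hd : Module.finrank F P = n + 1 := by
      have := LinearMap.finrank_range_add_finrank_ker ((dotProductBilin F F) v)
      rw [LinearMap.range_eq_top.mpr (fun a => ⟨a • v, by simp [hv]⟩), finrank_top, Module.finrank_self,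
        Module.finrank_fintype_fun_eq_card, Fintype.card_fin] at this
      simp only [P]
      omega
    have hne : v i + v j ≠ 0 := fun h => hij (CharTwo.add_eq_zero.mp h)
    set w : Fin (n + 2) → F := Pi.single i (v j / (v i + v j)) + Pi.single j (v i / (v i + v j)) with hw
    obtain ⟨x, hx⟩ := exists_orthonormal_family (n + 1) β hd (fun a b => dotProduct_comm (a : Fin (n + 2) → F) (b : Fin (n + 2) → F))
      (fun a ha => by
        apply Subtype.ext
        refine dotProduct_eq_zero _ fun z => ?_
        have hz : z + (v ⬝ᵥ z) • v ∈ P := by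
          simp [P, hv, CharTwo.add_self_eq_zero]
        have h := ha ⟨_, hz⟩
        have hav : v ⬝ᵥ (a : Fin (n + 2) → F) = 0 := a.2
        simpa [β, dotProduct_comm _ v, hav] using h)
      ⟨⟨w, by
        simp only [P, LinearMap.mem_ker, dotProductBilin_apply_apply, hw, dotProduct_add,
          dotProduct_single]
        field_simp
        linear_combination (v i * v j) * (CharTwo.two_eq_zero : (2 : F) = 0)⟩, by
        change w ⬝ᵥ w ≠ 0
        rw [dotProduct_self_char_two, hw]
        simp only [Pi.add_apply, Finset.sum_add_distrib, Finset.sum_pi_single', Finset.mem_univ, if_true]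
        rw [← add_div, add_comm (v j), div_self hne, one_pow]
        exact one_ne_zero⟩
      isSquare_char_two
    rw [← card_orthonormal_families β x hx hd]
    refine Nat.card_congr
      { toFun := fun y => ⟨fun k => ⟨y.1 k, y.2.1 k⟩, fun a b => y.2.2 a b⟩
        invFun := fun y => ⟨fun k => (y.1 k).1, fun k => (y.1 k).2, fun a b => y.2 a b⟩
        left_inv := fun y => rfl
        right_inv := fun y => rfl }

/-- The recursion for `onCount`. -/
theorem onCount_succ (n : ℕ) :
    onCount F (n + 2) = (Nat.card F ^ (n + 1) - if Odd n then 1 else 0) * onCount F (n + 1) := by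
  classical
  cases nonempty_fintype F
  let S := {v : Fin (n + 2) → F // ∑ i, v i = 1}
  have hS : Nat.card S = Nat.card F ^ (n + 1) := by
    have e : S ≃ (Fin (n + 1) → F) :=
      { toFun := fun v => Fin.tail v.1
        invFun := fun u => ⟨Fin.cons (1 + ∑ i, u i) u, by
          rw [Fin.sum_univ_succ]
          simp [add_assoc, CharTwo.add_self_eq_zero]⟩
        left_inv := fun v => by
          apply Subtype.ext
          have h := v.2
          rw [Fin.sum_univ_succ] at h
          have h0 : v.1 0 = 1 + ∑ i, Fin.tail v.1 i := by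
            show v.1 0 = 1 + ∑ i : Fin (n + 1), v.1 i.succ
            linear_combination h - (∑ i : Fin (n + 1), v.1 i.succ) * (CharTwo.two_eq_zero : (2 : F) = 0)
          simp only [← h0, Fin.cons_self_tail]
        right_inv := fun u => Fin.tail_cons _ _ }
    rw [Nat.card_congr e, Nat.card_fun, Nat.card_fin]
  let Y : S → Type _ := fun v => {y : Fin (n + 1) → Fin (n + 2) → F //
    (∀ i, v.1 ⬝ᵥ y i = 0) ∧ ∀ i j, y i ⬝ᵥ y j = if i = j then 1 else 0}
  have e : {A : Matrix (Fin (n + 2)) (Fin (n + 2)) F // A * Aᵀ = 1} ≃ Σ v : S, Y v :=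
    { toFun := fun A => ⟨⟨A.1 0, sum_eq_one_of_dot_self
          (((mul_transpose_eq_one_iff A.1).mp A.2 0 0).trans (if_pos rfl))⟩,
        ⟨fun i => A.1 i.succ, fun i => ((mul_transpose_eq_one_iff A.1).mp A.2 0 i.succ).trans
            (if_neg (Fin.succ_ne_zero i).symm),
          fun i j => by simpa using (mul_transpose_eq_one_iff A.1).mp A.2 i.succ j.succ⟩⟩
      invFun := fun p => ⟨Fin.cons p.1.1 p.2.1, (mul_transpose_eq_one_iff _).mpr fun i j => by
        induction i using Fin.cases with
        | zero =>
          induction j using Fin.cases with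
          | zero => simp [dotProduct_self_char_two, p.1.2]
          | succ j => simp [p.2.2.1 j, (Fin.succ_ne_zero j).symm]
        | succ i =>
          induction j using Fin.cases with
          | zero => rw [dotProduct_comm]; simp [p.2.2.1 i, Fin.succ_ne_zero i]
          | succ j => simpa using p.2.2.2 i j⟩
      left_inv := fun A => Subtype.ext (Fin.cons_self_tail A.1)
      right_inv := fun p => by
        obtain ⟨⟨v, hv⟩, ⟨y, hy⟩⟩ := p
        rfl }
  rw [onCount, Nat.card_congr e, Nat.card_sigma]
  simp only [Y, fun v : S => card_completions v.1 v.2]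
  rw [Finset.sum_ite, Finset.sum_const_zero, zero_add, Finset.sum_const, smul_eq_mul]
  congr 1
  rw [Finset.filter_not, Finset.card_sdiff, Finset.inter_univ, Finset.card_univ, ← Nat.card_eq_fintype_card (α := S), hS]
  congr 1
  by_cases hn : Odd n
  · rw [if_pos hn, Finset.card_eq_one]
    have h1 : ∑ _i : Fin (n + 2), (1 : F) = 1 := by
      obtain ⟨k, rfl⟩ := hn
      simp [CharTwo.two_eq_zero]
    refine ⟨⟨fun _ => 1, h1⟩, ?_⟩
    ext v
    simp only [Finset.mem_filter, Finset.mem_univ, true_and, Finset.mem_singleton]
    exact ⟨fun h => Subtype.ext (funext h), fun h i => by rw [h]⟩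
  · rw [if_neg hn, Finset.card_eq_zero, Finset.filter_eq_empty_iff]
    intro v _ hv
    have h := v.2
    simp only [hv, Finset.sum_const, Finset.card_univ, Fintype.card_fin, nsmul_one] at h
    obtain ⟨k, rfl⟩ := Nat.not_odd_iff_even.mp hn
    push_cast at h
    exact one_ne_zero (h.symm.trans (by
      linear_combination ((k : F) + 1) * (CharTwo.two_eq_zero : (2 : F) = 0)))

/-- `onCount` in odd dimension is the order of a symplectic group. -/
theorem onCount_odd (k : ℕ) :
    onCount F (2 * k + 1) = Nat.card F ^ (k ^ 2) * ∏ i ∈ Finset.range k, (Nat.card F ^ (2 * (i + 1)) - 1) := by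
  induction k with
  | zero => simp [onCount_one]
  | succ k ih =>
    rw [show 2 * (k + 1) + 1 = (2 * k + 1) + 2 by ring, onCount_succ, if_pos (odd_two_mul_add_one k),
      show 2 * k + 1 + 1 = 2 * k + 2 by ring, onCount_succ, if_neg (Nat.not_odd_iff_even.mpr ⟨k, two_mul k⟩),
      tsub_zero, ih, Finset.prod_range_succ, show 2 * (k + 1) = 2 * k + 2 by ring,
      show (k + 1) ^ 2 = k ^ 2 + (2 * k + 1) by ring, pow_add]
    ring

/-- `onCount` in positive even dimension. -/
theorem onCount_even (k : ℕ) :
    onCount F (2 * k + 2) = Nat.card F ^ (2 * k + 1) *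
      (Nat.card F ^ (k ^ 2) * ∏ i ∈ Finset.range k, (Nat.card F ^ (2 * (i + 1)) - 1)) := by
  rw [onCount_succ, if_neg (Nat.not_odd_iff_even.mpr ⟨k, two_mul k⟩), tsub_zero, onCount_odd]

end Cfsg.Agent.H65
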