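import Cfsg.Agent.H2.Card
import Cfsg.Agent.H65.SpInvol

/-!
Centralizers of symplectic involutions in characteristic two: counting frames.
-/

set_option autoImplicit false

open LinearMap (BilinForm)
open Matrix

namespace Cfsg.Agent.H65

variable {F V : Type*} [Field F] [AddCommGroup V] [Module F V]

/-- Isometries commuting with `N`. -/
def centN (B : BilinForm F V) (N : V →ₗ[F] V) : Subgroup (H2.isometries B) where
  carrier := {g | ∀ v, (g : V ≃ₗ[F] V) (N v) = N ((g : V ≃ₗ[F] V) v)}
  one_mem' := fun _ => rfl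
  mul_mem' {g h} hg hh v := by simp [hg _, hh _]
  inv_mem' {g} hg v := by
    apply (g : V ≃ₗ[F] V).injective
    rw [hg]
    simp [LinearEquiv.coe_inv]

variable {B : BilinForm F V} {N : V →ₗ[F] V}
variable {ι : Type*} [Fintype ι] [DecidableEq ι] {G : Matrix ι ι F}

/-- Symmetric matrices with zero diagonal. -/
def altSymm (F ι : Type*) [Zero F] : Type _ := {M : Matrix ι ι F // (∀ i, M i i = 0) ∧ ∀ i j, M i j = M j i}

omit [Fintype ι] [DecidableEq ι] in
theorem card_altSymm [Finite F] [Fintype ι] :
    Nat.card (altSymm F ι) = Nat.card F ^ (Fintype.card ι).choose 2 := by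
  classical
  have e : altSymm F ι ≃ ({a : Sym2 ι // ¬ a.IsDiag} → F) :=
    { toFun := fun M a => Sym2.lift ⟨fun i j => M.1 i j, M.2.2⟩ a.1
      invFun := fun f => ⟨Matrix.of fun i j => if h : i = j then 0 else f ⟨s(i, j), by simpa using h⟩,
        fun i => by simp, fun i j => by
          by_cases h : i = j
          · simp [h]
          · simp only [Matrix.of_apply, h, Ne.symm h, dite_false]
            congr 1
            exact Subtype.ext Sym2.eq_swap⟩
      left_inv := fun M => by
        apply Subtype.ext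
        ext i j
        by_cases h : i = j
        · simp [h, M.2.1 j]
        · simp [h]
      right_inv := fun f => by
        funext a
        obtain ⟨a, ha⟩ := a
        induction a using Sym2.ind with
        | _ i j =>
          have h : i ≠ j := by simpa using ha
          simp [h] }
  rw [Nat.card_congr e, Nat.card_fun, Nat.card_eq_fintype_card (α := {a : Sym2 ι // ¬ a.IsDiag}),
    Sym2.card_subtype_not_diag]

section FramesSec

variable [CharP F 2] [FiniteDimensional F V]

/-- Kernel translates of a family that are totally isotropic. -/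
def isoShifts (B : BilinForm F V) (N : V →ₗ[F] V) (a : ι → V) : Type _ :=
  {k : ι → LinearMap.ker N // ∀ i j, B (a i + k i) (a j + k j) = 0}

/-- Every Gram family has equally many isotropic kernel translates. -/
theorem InvData.card_isoShifts [Finite F] (d : InvData B N) (hG : IsUnit G.det) {a : ι → V}
    (ha : ∀ i j, B (a i) (N (a j)) = G i j) :
    Nat.card F ^ (Fintype.card ι).choose 2 * Nat.card (isoShifts B N a) =
      Nat.card F ^ (Module.finrank F (LinearMap.ker N) * Fintype.card ι) := by
  classical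
  let _ : LinearOrder ι := LinearOrder.lift' (Fintype.equivFin ι) (Fintype.equivFin ι).injective
  let L : Matrix ι ι F → ι → LinearMap.ker N := fun c i =>
    ⟨∑ l, c i l • N (a l), by simp [map_sum, d.sq]⟩
  have hL : ∀ c i, (L c i : V) = ∑ l, c i l • N (a l) := fun c i => rfl
  let Φ : (ι → LinearMap.ker N) → Matrix ι ι F := fun k => Matrix.of fun i j => B (a i + k i) (a j + k j)
  have hΦ : ∀ k c i j, Φ (k + L c) i j = Φ k i j + ((c * G) i j + (c * G) j i) := fun k c i j => by
    simp only [Φ, Matrix.of_apply, Pi.add_apply, Submodule.coe_add, hL]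
    exact d.gram_shift ha (fun i => (k i : V)) (fun i => LinearMap.mem_ker.mp (k i).2) c i j
  have hmem : ∀ k, (∀ i, Φ k i i = 0) ∧ ∀ i j, Φ k i j = Φ k j i := fun k =>
    ⟨fun i => d.alt _, fun i j => d.symm _ _⟩
  let σ : Matrix ι ι F → Matrix ι ι F := fun M => upperPart M * G⁻¹
  have hσ : ∀ (M : altSymm F ι) i j, (σ M.1 * G) i j + (σ M.1 * G) j i = M.1 i j := fun M i j => by
    simp only [σ, Matrix.mul_assoc, Matrix.nonsing_inv_mul _ hG, Matrix.mul_one]
    exact upperPart_add M.1 M.2.1 M.2.2 i j
  have e : (ι → LinearMap.ker N) ≃ altSymm F ι × isoShifts B N a :=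
    { toFun := fun k => (⟨Φ k, hmem k⟩, ⟨k + L (σ (Φ k)), fun i j => by
        have h := hΦ k (σ (Φ k)) i j
        rw [hσ ⟨Φ k, hmem k⟩, CharTwo.add_self_eq_zero] at h
        exact h⟩)
      invFun := fun p => p.2.1 + L (σ p.1.1)
      left_inv := fun k => by
        show k + L (σ (Φ k)) + L (σ (Φ k)) = k
        funext i
        apply Subtype.ext
        simp only [Pi.add_apply, Submodule.coe_add]
        rw [add_assoc, ← two_smul F (L (σ (Φ k)) i : V), CharTwo.two_eq_zero, zero_smul, add_zero]
      right_inv := fun p => by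
        obtain ⟨M, k0⟩ := p
        have hM : Φ (k0.1 + L (σ M.1)) = M.1 := by
          ext i j
          rw [hΦ, hσ, show Φ k0.1 i j = 0 from k0.2 i j, zero_add]
        refine Prod.ext (Subtype.ext hM) (Subtype.ext ?_)
        show k0.1 + L (σ M.1) + L (σ (Φ (k0.1 + L (σ M.1)))) = k0.1
        rw [hM]
        funext i
        apply Subtype.ext
        simp only [Pi.add_apply, Submodule.coe_add]
        rw [add_assoc, ← two_smul F (L (σ M.1) i : V), CharTwo.two_eq_zero, zero_smul, add_zero] }
  rw [← card_altSymm (F := F) (ι := ι), ← Nat.card_prod, ← Nat.card_congr e, Nat.card_fun,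
    Nat.card_eq_fintype_card (α := ι), Module.natCard_eq_pow_finrank (K := F), ← pow_mul]

/-- The number of frames. -/
theorem InvData.card_frames [Finite F] (d : InvData B N) (hG : IsUnit G.det)
    (hc : Fintype.card ι = Module.finrank F (LinearMap.range N)) {x₀ : ι → V}
    (h₀ : ∀ i j, B (x₀ i) (N (x₀ j)) = G i j) :
    Nat.card F ^ (Fintype.card ι).choose 2 * Nat.card {x : ι → V // IsFrame B N G x} =
      Nat.card {A : Matrix ι ι F // A * G * Aᵀ = G} *
        Nat.card F ^ (Module.finrank F (LinearMap.ker N) * Fintype.card ι) := by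
  classical
  have hfin : Finite V := Module.finite_of_finite F
  let a : Matrix ι ι F → ι → V := fun A i => ∑ l, A i l • x₀ l
  have haG : ∀ A i j, B (a A i) (N (x₀ j)) = (A * G) i j := fun A i j => by
    simp [a, map_sum, LinearMap.sum_apply, h₀, Matrix.mul_apply]
  have haa : ∀ A : Matrix ι ι F, ∀ i j, B (a A i) (N (a A j)) = (A * G * Aᵀ) i j := fun A i j => by
    rw [Matrix.mul_apply]
    simp only [← haG, a, map_sum, map_smul, smul_eq_mul, Matrix.transpose_apply]
    exact Finset.sum_congr rfl fun l _ => mul_comm _ _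
  let A₀ : (ι → V) → Matrix ι ι F := fun x => Matrix.of (fun i j => B (x i) (N (x₀ j))) * G⁻¹
  have hA₀G : ∀ x i j, (A₀ x * G) i j = B (x i) (N (x₀ j)) := fun x i j => by
    simp [A₀, Matrix.mul_assoc, Matrix.nonsing_inv_mul _ hG]
  have hker : ∀ x i, N (x i - a (A₀ x) i) = 0 := fun x i => by
    refine d.nondeg.1 _ fun v => ?_
    obtain ⟨c, k, hk, rfl⟩ := d.exists_decomp hG hc h₀ v
    rw [d.adj]
    simp [map_sum, hk, LinearMap.sub_apply, haG, hA₀G]
  have hA₀ : ∀ (A : Matrix ι ι F) (k : ι → V), (∀ i, N (k i) = 0) → A₀ (fun i => a A i + k i) = A := by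
    intro A k hk
    have : Matrix.of (fun i j => B (a A i + k i) (N (x₀ j))) = A * G := by
      ext i j
      simp [haG, ← d.adj, hk]
    simp only [A₀]
    rw [this, Matrix.mul_assoc, Matrix.mul_nonsing_inv _ hG, Matrix.mul_one]
  have e : {x : ι → V // IsFrame B N G x} ≃
      Σ A : {A : Matrix ι ι F // A * G * Aᵀ = G}, isoShifts B N (a A.1) :=
    { toFun := fun x => ⟨⟨A₀ x.1, by
        ext i j
        rw [← haa, ← x.2.1 i j]
        have hNj : N (x.1 j) = N (a (A₀ x.1) j) := sub_eq_zero.mp (by rw [← map_sub]; exact hker x.1 j)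
        have hNi : N (x.1 i) = N (a (A₀ x.1) i) := sub_eq_zero.mp (by rw [← map_sub]; exact hker x.1 i)
        rw [hNj, ← d.adj (x.1 i), hNi, d.adj]⟩,
        ⟨fun i => ⟨x.1 i - a (A₀ x.1) i, LinearMap.mem_ker.mpr (hker x.1 i)⟩, fun i j => by
          simpa using x.2.2 i j⟩⟩
      invFun := fun p => ⟨fun i => a p.1.1 i + (p.2.1 i : V), fun i j => by
          have hki : N (p.2.1 i : V) = 0 := (p.2.1 i).2
          have hkj : N (p.2.1 j : V) = 0 := (p.2.1 j).2
          simp only [map_add, hkj, add_zero, LinearMap.add_apply]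
          rw [← d.adj (p.2.1 i : V), hki, map_zero, LinearMap.zero_apply, add_zero, haa, p.1.2],
        p.2.2⟩
      left_inv := fun x => Subtype.ext (funext fun i => by simp)
      right_inv := fun p => by
        obtain ⟨⟨A, hA⟩, ⟨k, hk⟩⟩ := p
        have hAe : A₀ (fun i => a A i + (k i : V)) = A := hA₀ A _ fun i => (k i).2
        refine Sigma.subtype_ext ?_ ?_
        · exact Subtype.ext hAe
        · funext i
          apply Subtype.ext
          simp [hAe] }
  cases nonempty_fintype {A : Matrix ι ι F // A * G * Aᵀ = G}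
  have hshift : ∀ A : {A : Matrix ι ι F // A * G * Aᵀ = G},
      Nat.card F ^ (Fintype.card ι).choose 2 * Nat.card (isoShifts B N (a A.1)) =
        Nat.card F ^ (Module.finrank F (LinearMap.ker N) * Fintype.card ι) := fun A =>
    d.card_isoShifts hG fun i j => by rw [haa, A.2]
  have : Finite V := hfin
  have hf2 : ∀ A : Matrix ι ι F, Finite (isoShifts B N (a A)) := fun A => by
    unfold isoShifts; infer_instance
  rw [Nat.card_congr e, Nat.card_sigma, Finset.mul_sum, Finset.sum_congr rfl fun A _ => hshift A,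
    Finset.sum_const, Finset.card_univ, smul_eq_mul, Nat.card_eq_fintype_card (α := {A : Matrix ι ι F // A * G * Aᵀ = G})]

end FramesSec

/-- Extending an automorphism of a complement by the identity. -/
noncomputable def extendId {U Y : Submodule F V} (hUY : IsCompl U Y) (h : Y ≃ₗ[F] Y) : V ≃ₗ[F] V :=
  (Submodule.prodEquivOfIsCompl U Y hUY).symm.trans
    (((LinearEquiv.refl F U).prodCongr h).trans (Submodule.prodEquivOfIsCompl U Y hUY))

theorem extendId_add {U Y : Submodule F V} (hUY : IsCompl U Y) (h : Y ≃ₗ[F] Y) (u : U) (y : Y) :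
    extendId hUY h ((u : V) + (y : V)) = (u : V) + (h y : V) := by
  have e : (Submodule.prodEquivOfIsCompl U Y hUY).symm ((u : V) + (y : V)) = (u, y) := by
    rw [LinearEquiv.symm_apply_eq, Submodule.coe_prodEquivOfIsCompl']
  rw [extendId, LinearEquiv.trans_apply, LinearEquiv.trans_apply, e, LinearEquiv.prodCongr_apply,
    Submodule.coe_prodEquivOfIsCompl', LinearEquiv.refl_apply]

theorem extendId_left {U Y : Submodule F V} (hUY : IsCompl U Y) (h : Y ≃ₗ[F] Y) (u : U) :
    extendId hUY h (u : V) = u := by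
  simpa using extendId_add hUY h u 0

/-- The pointwise stabiliser of a complemented subspace in the centralizer of `N`. -/
theorem card_stab_centN (hrefl : B.IsRefl) {U Y : Submodule F V} (hUY : IsCompl U Y)
    (hperp : ∀ u ∈ U, ∀ y ∈ Y, B u y = 0) (hY : ∀ v, (∀ u ∈ U, B u v = 0) → v ∈ Y)
    (hNU : ∀ u ∈ U, N u ∈ U) (hNY : ∀ y ∈ Y, N y = 0) [FiniteDimensional F V] :
    Nat.card {g : centN B N // ∀ u ∈ U, ((g : H2.isometries B) : V ≃ₗ[F] V) u = u} =
      Nat.card (H2.isometries (B.restrict Y)) := by
  have hsup : ∀ v : V, ∃ (u : U) (y : Y), v = (u : V) + (y : V) := fun v => by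
    obtain ⟨u, hu, y, hy, rfl⟩ := Submodule.mem_sup.mp (hUY.sup_eq_top ▸ Submodule.mem_top : v ∈ U ⊔ Y)
    exact ⟨⟨u, hu⟩, ⟨y, hy⟩, rfl⟩
  have hgY : ∀ g : {g : centN B N // ∀ u ∈ U, ((g : H2.isometries B) : V ≃ₗ[F] V) u = u}, ∀ y ∈ Y,
      ((g.1 : H2.isometries B) : V ≃ₗ[F] V) y ∈ Y := fun g y hy => hY _ fun u hu => by
    conv_lhs => rw [← g.2 u hu]
    rw [g.1.1.2]
    exact hperp u hu y hy
  have hbij : ∀ g : {g : centN B N // ∀ u ∈ U, ((g : H2.isometries B) : V ≃ₗ[F] V) u = u},
      Function.Bijective (((g.1 : H2.isometries B) : V ≃ₗ[F] V).toLinearMap.restrict (hgY g)) := fun g =>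
    have hinj : Function.Injective (((g.1 : H2.isometries B) : V ≃ₗ[F] V).toLinearMap.restrict (hgY g)) :=
      fun a b h => Subtype.ext (((g.1 : H2.isometries B) : V ≃ₗ[F] V).injective (congrArg Subtype.val h))
    ⟨hinj, LinearMap.surjective_of_injective hinj⟩
  have hiso : ∀ h : H2.isometries (B.restrict Y), extendId hUY h.1 ∈ H2.isometries B := by
    intro h v w
    obtain ⟨u, y, rfl⟩ := hsup v
    obtain ⟨u', y', rfl⟩ := hsup w
    rw [extendId_add, extendId_add]
    simp only [map_add, LinearMap.add_apply]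
    rw [hperp u u.2 _ (h.1 y').2, hrefl _ _ (hperp u' u'.2 _ (h.1 y).2), hperp u u.2 _ y'.2,
      hrefl _ _ (hperp u' u'.2 _ y.2)]
    have := h.2 y y'
    simp only [LinearMap.BilinForm.restrict_apply, LinearMap.domRestrict_apply] at this
    rw [this]
  have hcom : ∀ h : H2.isometries (B.restrict Y),
      ∀ v, extendId hUY h.1 (N v) = N (extendId hUY h.1 v) := by
    intro h v
    obtain ⟨u, y, rfl⟩ := hsup v
    rw [extendId_add, map_add N, map_add N, hNY y y.2, hNY _ (h.1 y).2, add_zero]
    exact extendId_left hUY h.1 ⟨N u, hNU u u.2⟩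
  refine Nat.card_congr
    { toFun := fun g => ⟨LinearEquiv.ofBijective _ (hbij g), fun a b => g.1.1.2 _ _⟩
      invFun := fun h => ⟨⟨⟨extendId hUY h.1, hiso h⟩, hcom h⟩, fun u hu => extendId_left hUY h.1 ⟨u, hu⟩⟩
      left_inv := fun g => by
        apply Subtype.ext
        apply Subtype.ext
        apply Subtype.ext
        refine LinearEquiv.ext fun v => ?_
        obtain ⟨u, y, rfl⟩ := hsup v
        rw [extendId_add, map_add, g.2 _ u.2]
        rfl
      right_inv := fun h => by
        apply Subtype.ext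
        refine LinearEquiv.ext fun y => Subtype.ext ?_
        show extendId hUY h.1 (y : V) = _
        simpa using extendId_add hUY h.1 0 y }

variable [CharP F 2] [FiniteDimensional F V]

/-- The centralizer order in terms of frames and the symplectic group of the perp. -/
theorem InvData.card_centN [Finite F] (d : InvData B N) (hG : IsUnit G.det) (hGs : Gᵀ = G)
    (hc : Fintype.card ι = Module.finrank F (LinearMap.range N)) {x₀ : ι → V}
    (h₀ : IsFrame B N G x₀) {m : ℕ} (hdim : Module.finrank F V = 2 * m) :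
    Fintype.card ι ≤ m ∧ Nat.card (centN B N) = Nat.card {x : ι → V // IsFrame B N G x} *
      Nat.card (Matrix.symplecticGroup (Fin (m - Fintype.card ι)) F) := by
  classical
  have hi := d.linearIndependent_gram hG h₀.1
  let e : ι ⊕ ι → V := Sum.elim x₀ (fun i => N (x₀ i))
  let U := Submodule.span F (Set.range e)
  have hUd : Module.finrank F U = Fintype.card ι + Fintype.card ι := by
    rw [← Fintype.card_sum]; exact finrank_span_eq_card hi
  have hle : Fintype.card ι ≤ m := by
    have := Submodule.finrank_le U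
    omega
  refine ⟨hle, ?_⟩
  let Y := LinearMap.BilinForm.orthogonal B U
  have hrefl : B.IsRefl := d.alt.isRefl
  have hUnd : (B.restrict U).Nondegenerate := by
    have : ∀ u : U, (∀ v : U, B (u : V) (v : V) = 0) → u = 0 := by
      rintro ⟨u, hu⟩ h
      obtain ⟨c, rfl⟩ := (Submodule.mem_span_range_iff_exists_fun F).mp hu
      have h2 : ∀ j, ∑ k, c k * B (e k) (e j) = 0 := fun j => by
        simpa [map_sum, LinearMap.sum_apply] using h ⟨e j, Submodule.subset_span ⟨j, rfl⟩⟩
      have hz : ∀ (f : ι → F), (∀ j, ∑ i, f i * G i j = 0) → ∀ i, f i = 0 := by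
        intro f hf i
        have h : f ᵥ* G = 0 := funext fun j => by simpa [Matrix.vecMul, dotProduct] using hf j
        have h2 := congrArg (fun w => w ᵥ* G⁻¹) h
        simp only [Matrix.vecMul_vecMul, Matrix.mul_nonsing_inv _ hG, Matrix.vecMul_one, Matrix.zero_vecMul] at h2
        exact congrFun h2 i
      have hcl : ∀ i, c (.inl i) = 0 := hz _ fun j => by
        have := h2 (.inr j)
        simpa [e, Fintype.sum_sum_type, h₀.1, d.range_isotropic] using this
      have hcr : ∀ i, c (.inr i) = 0 := hz _ fun j => by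
        have := h2 (.inl j)
        simpa [e, Fintype.sum_sum_type, h₀.1, d.adj, hcl] using this
      have : ∀ k, c k = 0 := fun k => by cases k <;> simp [hcl, hcr]
      simp [this]
    exact ⟨fun u hu => this u hu, fun u hu => this u fun v => hrefl _ _ (hu v)⟩
  have hUY : IsCompl U Y := (LinearMap.BilinForm.restrict_nondegenerate_iff_isCompl_orthogonal hrefl).mp hUnd
  have hYnd : (B.restrict Y).Nondegenerate :=
    (LinearMap.BilinForm.restrict_nondegenerate_iff_isCompl_orthogonal hrefl).mpr (by
      rw [LinearMap.BilinForm.orthogonal_orthogonal d.nondeg hrefl U]; exact hUY.symm)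
  have hYd : Module.finrank F Y = 2 * (m - Fintype.card ι) := by
    have := Submodule.finrank_add_eq_of_isCompl hUY
    omega
  have hNY : ∀ y ∈ Y, N y = 0 := by
    intro y hy
    refine d.nondeg.1 _ fun v => ?_
    obtain ⟨c, k, hk, rfl⟩ := d.exists_decomp hG hc h₀.1 v
    rw [d.adj, map_add N, hk, add_zero, map_sum, map_sum]
    refine Finset.sum_eq_zero fun i _ => ?_
    rw [map_smul, map_smul]
    have := hrefl _ _ (hy (e (.inr i)) (Submodule.subset_span ⟨_, rfl⟩))
    simp only [e, Sum.elim_inr] at this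
    rw [this, smul_zero]
  have hσ : ∀ x : {x : ι → V // IsFrame B N G x}, ∃ g : centN B N,
      ∀ i, ((g : H2.isometries B) : V ≃ₗ[F] V) (x₀ i) = x.1 i := fun x => by
    obtain ⟨g, hg, hgx, hgN⟩ := exists_transfer d d hG hc hc h₀ x.2
    exact ⟨⟨⟨g, hg⟩, hgN⟩, hgx⟩
  choose σ hσ using hσ
  have happ : ∀ g : centN B N, IsFrame B N G (fun i => ((g : H2.isometries B) : V ≃ₗ[F] V) (x₀ i)) :=
    fun g => ⟨fun i j => by rw [← g.2, g.1.2]; exact h₀.1 i j, fun i j => by rw [g.1.2]; exact h₀.2 i j⟩
  let St := {g : centN B N // ∀ i, ((g : H2.isometries B) : V ≃ₗ[F] V) (x₀ i) = x₀ i}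
  have e1 : centN B N ≃ {x : ι → V // IsFrame B N G x} × St :=
    { toFun := fun g => (⟨_, happ g⟩, ⟨(σ ⟨_, happ g⟩)⁻¹ * g, fun i => by
        apply ((σ ⟨_, happ g⟩ : H2.isometries B) : V ≃ₗ[F] V).injective
        rw [hσ]
        simp [LinearEquiv.coe_inv]⟩)
      invFun := fun p => σ p.1 * p.2.1
      left_inv := fun g => mul_inv_cancel_left _ _
      right_inv := fun p => by
        obtain ⟨x, g⟩ := p
        have hx : (fun i => (((σ x * g.1 : centN B N) : H2.isometries B) : V ≃ₗ[F] V) (x₀ i)) = x.1 := by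
          funext i; simp [g.2 i, hσ]
        have hxe : (⟨_, happ (σ x * g.1)⟩ : {x : ι → V // IsFrame B N G x}) = x := Subtype.ext hx
        refine Prod.ext hxe (Subtype.ext ?_)
        show (σ ⟨_, happ (σ x * g.1)⟩)⁻¹ * (σ x * g.1) = g.1
        rw [hxe, inv_mul_cancel_left] }
  have hgU : ∀ g : St, ∀ u ∈ U, ((g.1 : H2.isometries B) : V ≃ₗ[F] V) u = u := by
    intro g u hu
    induction hu using Submodule.span_induction with
    | mem u hu =>
      obtain ⟨k | k, rfl⟩ := hu
      · exact g.2 k
      · show ((g.1 : H2.isometries B) : V ≃ₗ[F] V) (N (x₀ k)) = N (x₀ k)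
        rw [g.1.2, g.2]
    | zero => exact map_zero _
    | add a b _ _ ha hb => rw [map_add, ha, hb]
    | smul c a _ ha => rw [map_smul, ha]
  have e2 : Nat.card St = Nat.card (H2.isometries (B.restrict Y)) := by
    rw [← card_stab_centN (N := N) hrefl hUY (fun u hu y hy => hy u hu) (fun v h => h) ?_ hNY]
    · exact Nat.card_congr (Equiv.subtypeEquivRight fun g => ⟨fun h => hgU ⟨g, h⟩,
        fun h i => h _ (Submodule.subset_span ⟨.inl i, rfl⟩)⟩)
    · intro u hu
      induction hu using Submodule.span_induction with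
      | mem u hu =>
        obtain ⟨k | k, rfl⟩ := hu
        · exact Submodule.subset_span ⟨.inr k, rfl⟩
        · show N (N (x₀ k)) ∈ U
          rw [d.sq]; exact U.zero_mem
      | zero => simp
      | add a b _ _ ha hb => rw [map_add]; exact add_mem ha hb
      | smul c a _ ha => rw [map_smul]; exact Submodule.smul_mem _ c ha
  obtain ⟨e3⟩ := H2.isometries_equiv_sp (B.restrict Y) hYnd (fun y => d.alt _) hYd
  rw [Nat.card_congr e1, Nat.card_prod, e2, Nat.card_congr e3.toEquiv]

end Cfsg.Agent.H65
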