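import Cfsg.Agent.H65.SpMatrix
import Cfsg.Agent.H65.SpCent
import Cfsg.Agent.H65.OrthCount

/-!
Centralizer orders of involutions of `Sp_2m(q)`, `q` even.
-/

set_option autoImplicit false

open Matrix

namespace Cfsg.Agent.H65

variable {F : Type*} [Field F] [CharP F 2] {m : ℕ}

omit [CharP F 2] in
theorem card_centralizer_eq_centN (t : Matrix.symplecticGroup (Fin m) F) :
    Nat.card (Subgroup.centralizer ({t} : Set (Matrix.symplecticGroup (Fin m) F))) =
      Nat.card (centN (H2.sympBilin m F) (spN t)) := by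
  refine Nat.card_congr ((H2.spEquivIsometries m F).toEquiv.subtypeEquiv fun g => ?_)
  rw [Subgroup.mem_centralizer_singleton_iff]
  show g * t = t * g ↔ ∀ v, ((H2.spEquivIsometries m F g : H2.isometries (H2.sympBilin m F)) :
    (Fin m ⊕ Fin m → F) ≃ₗ[F] (Fin m ⊕ Fin m → F)) (spN t v) = spN t (((H2.spEquivIsometries m F g :
      H2.isometries (H2.sympBilin m F)) : (Fin m ⊕ Fin m → F) ≃ₗ[F] (Fin m ⊕ Fin m → F)) v)
  simp only [spN_apply, H2.spEquivIsometries_apply, Matrix.mulVec_sub, Matrix.mulVec_mulVec,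
    sub_left_inj]
  exact ⟨fun h v => congrArg (fun x : Matrix.symplecticGroup (Fin m) F => x.1 *ᵥ v) h,
    fun h => H2.ext_of_mulVec fun x => h x⟩

variable [Finite F]

/-- Turning the frame count into a closed formula. -/
theorem centralizer_arith {q C Fr A P m s : ℕ} (hq : 0 < q) (hs : s ≤ m)
    (hFr : q ^ s.choose 2 * Fr = A * q ^ ((2 * m - s) * s)) (hC : C = Fr * P) :
    C = q ^ (2 * m * s - (3 * s ^ 2 - s) / 2) * A * P := by
  have hch : s.choose 2 * 2 + s = s * s := by
    rw [Nat.choose_two_right, Nat.div_mul_cancel (Nat.even_mul_pred_self s).two_dvd]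
    cases s with
    | zero => rfl
    | succ k => simp; ring
  have hmul : (2 * m - s) * s + s * s = 2 * m * s := by
    rw [← add_mul, Nat.sub_add_cancel (by omega)]
  have h3 : (3 * s ^ 2 - s) / 2 = s * s + s.choose 2 := by
    rw [pow_two]
    omega
  have hle : s.choose 2 ≤ (2 * m - s) * s := by
    have : s * s ≤ (2 * m - s) * s := Nat.mul_le_mul_right s (by omega)
    omega
  have hFr' : Fr = A * q ^ ((2 * m - s) * s - s.choose 2) := by
    refine Nat.eq_of_mul_eq_mul_left (pow_pos hq (s.choose 2)) ?_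
    rw [hFr, mul_left_comm, ← pow_add, Nat.add_sub_cancel' hle]
  rw [hC, hFr', h3, show (2 * m - s) * s - s.choose 2 = 2 * m * s - (s * s + s.choose 2) by omega]
  ring

/-- Types b and c. -/
theorem card_centralizer_nonalt (t : Matrix.symplecticGroup (Fin m) F) (ht : t ^ 2 = 1) {s : ℕ}
    (hs : ((t : Matrix (Fin m ⊕ Fin m) (Fin m ⊕ Fin m) F) - 1).rank = s)
    (hna : ¬ ∀ v, Cfsg.sympForm m F v (t.1 *ᵥ v) = 0) :
    s ≤ m ∧ Nat.card (Subgroup.centralizer ({t} : Set (Matrix.symplecticGroup (Fin m) F))) =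
      Nat.card F ^ (2 * m * s - (3 * s ^ 2 - s) / 2) * onCount F s *
        Nat.card (Matrix.symplecticGroup (Fin (m - s)) F) := by
  have d := invData_spN t ht
  obtain ⟨x₁, hx₁⟩ : ∃ x₁ : Fin s → (Fin m ⊕ Fin m → F),
      ∀ i j, H2.sympBilin m F (x₁ i) (spN t (x₁ j)) = (1 : Matrix (Fin s) (Fin s) F) i j := by
    obtain ⟨x, hx⟩ := d.exists_gram_one isSquare_char_two ((isAltType_spN_iff t).not.mpr hna)
    refine ⟨x ∘ Fin.cast ((finrank_range_spN t).trans hs).symm, fun i j => ?_⟩
    rw [Function.comp, Function.comp, hx]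
    simp [Matrix.one_apply, Fin.ext_iff]
  have hG : IsUnit (1 : Matrix (Fin s) (Fin s) F).det := by simp
  have hc : Fintype.card (Fin s) = Module.finrank F (LinearMap.range (spN t)) := by
    rw [Fintype.card_fin, finrank_range_spN, hs]
  obtain ⟨x, hx⟩ := d.exists_frame hG hx₁
  have hdim : Module.finrank F (Fin m ⊕ Fin m → F) = 2 * m := by
    rw [Module.finrank_fintype_fun_eq_card]; simp; omega
  obtain ⟨hle, hC⟩ := d.card_centN hG Matrix.transpose_one hc hx hdim
  have hF := d.card_frames hG hc hx.1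
  have hk := LinearMap.finrank_range_add_finrank_ker (spN t)
  rw [Fintype.card_fin] at hle hC hF hc
  have hker : Module.finrank F (LinearMap.ker (spN t)) = 2 * m - s := by omega
  have hA : Nat.card {A : Matrix (Fin s) (Fin s) F // A * 1 * Aᵀ = 1} = onCount F s := by
    simp only [Matrix.mul_one]; rfl
  rw [hker, hA] at hF
  exact ⟨hle, by rw [card_centralizer_eq_centN]; exact centralizer_arith Nat.card_pos hle hF hC⟩

/-- Type a. -/
theorem card_centralizer_alt (t : Matrix.symplecticGroup (Fin m) F) (ht : t ^ 2 = 1) {s : ℕ}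
    (hs : ((t : Matrix (Fin m ⊕ Fin m) (Fin m ⊕ Fin m) F) - 1).rank = s)
    (ha : ∀ v, Cfsg.sympForm m F v (t.1 *ᵥ v) = 0) :
    s ≤ m ∧ Nat.card (Subgroup.centralizer ({t} : Set (Matrix.symplecticGroup (Fin m) F))) =
      Nat.card F ^ (2 * m * s - (3 * s ^ 2 - s) / 2) * Nat.card (Matrix.symplecticGroup (Fin (s / 2)) F) *
        Nat.card (Matrix.symplecticGroup (Fin (m - s)) F) := by
  have d := invData_spN t ht
  obtain ⟨k, hk2, x₁, hx₁⟩ := d.exists_gram_J ((isAltType_spN_iff t).mpr ha)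
  rw [finrank_range_spN, hs] at hk2
  have hG := Matrix.isUnit_det_J (Fin k) F
  have hc : Fintype.card (Fin k ⊕ Fin k) = Module.finrank F (LinearMap.range (spN t)) := by
    rw [Fintype.card_sum, Fintype.card_fin, finrank_range_spN, hs]; omega
  obtain ⟨x, hx⟩ := d.exists_frame hG hx₁
  have hdim : Module.finrank F (Fin m ⊕ Fin m → F) = 2 * m := by
    rw [Module.finrank_fintype_fun_eq_card]; simp; omega
  have hGs : (Matrix.J (Fin k) F)ᵀ = Matrix.J (Fin k) F := by
    rw [Matrix.J_transpose]; ext i j; simp [CharTwo.neg_eq]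
  obtain ⟨hle, hC⟩ := d.card_centN hG hGs hc hx hdim
  have hF := d.card_frames hG hc hx.1
  have hk := LinearMap.finrank_range_add_finrank_ker (spN t)
  have hcs : Fintype.card (Fin k ⊕ Fin k) = s := by rw [Fintype.card_sum, Fintype.card_fin]; omega
  rw [hcs] at hle hC hF hc
  have hker : Module.finrank F (LinearMap.ker (spN t)) = 2 * m - s := by omega
  have hA : Nat.card {A : Matrix (Fin k ⊕ Fin k) (Fin k ⊕ Fin k) F // A * Matrix.J (Fin k) F * Aᵀ = Matrix.J (Fin k) F} =
      Nat.card (Matrix.symplecticGroup (Fin (s / 2)) F) := by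
    obtain rfl : k = s / 2 := by omega
    exact Nat.card_congr (Equiv.subtypeEquivRight fun A => SymplecticGroup.mem_iff.symm)
  rw [hker, hA] at hF
  exact ⟨hle, by rw [card_centralizer_eq_centN]; exact centralizer_arith Nat.card_pos hle hF hC⟩

end Cfsg.Agent.H65
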